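import Cfsg.Agent.H900.SU4.Sim
import Cfsg.Agent.H900.SU4.Base
import Cfsg.Agent.H918.UProperTwo
import Cfsg.Agent.H76.PermFour
import Cfsg.Agent.H914.Sub
import Cfsg.Agent.S5784

/-!
# `SU_4(q)`: the normaliser of `4 ∘ 2^{1+4}` is maximal, `q = p ≡ 3 mod 4`
-/

set_option autoImplicit false
open Cfsg
open scoped Matrix MatrixGroups commutatorElement

namespace Cfsg.Agent.H900.SU4

open Cfsg.Geo Cfsg.Agent.H920 Cfsg.Agent.LieClassical.HermBasic

section decomp

variable {F : Type*} [Field F] {n t m : ℕ} {D : Fin t → Submodule F (Fin n → F)}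

/-- the action of the stabiliser of a decomposition on the set of its members -/
theorem exists_permHom (hD : Function.Injective D) : ∃ f : decompositionStabilizer D →* Equiv.Perm (Fin t),
    ∀ (g : decompositionStabilizer D) (i : Fin t), (D i).map (Matrix.toLin' ((g : GL (Fin n) F) : Matrix (Fin n) (Fin n) F)) = D (f g i) := by
  choose f hf using fun g : decompositionStabilizer D => g.2
  refine ⟨MonoidHom.mk' f (fun g h => ?_), hf⟩
  ext i : 1
  apply hD
  rw [← hf, Equiv.Perm.mul_apply, ← hf g, ← hf h, Subgroup.coe_mul, Units.val_mul, Matrix.toLin'_mul,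
    Submodule.map_comp]

/-- A perfect group stabilising a decomposition with at most four members fixes the members. -/
theorem perfect_fix (hD : Function.Injective D) (hsol : Group.IsSolvable (Equiv.Perm (Fin t)))
    {Y : Subgroup (GL (Fin n) F)} (hY : ⁅Y, Y⁆ = Y) (hYD : Y ≤ decompositionStabilizer D) :
    ∀ y ∈ Y, ∀ i, ∀ w ∈ D i, (y : Matrix (Fin n) (Fin n) F) *ᵥ w ∈ D i := by
  obtain ⟨f, hf⟩ := exists_permHom hD
  have h1 : ∀ y (hy : y ∈ Y), f ⟨y, hYD hy⟩ = 1 := by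
    intro y hy
    have hp : ⁅Y.subgroupOf (decompositionStabilizer D), Y.subgroupOf (decompositionStabilizer D)⁆ =
        Y.subgroupOf (decompositionStabilizer D) := by
      apply Subgroup.map_injective (decompositionStabilizer D).subtype_injective
      rw [Subgroup.map_commutator, Subgroup.subgroupOf_map_subtype, inf_eq_left.2 hYD, hY]
    exact Schreier.Basic.apply_eq_one_of_perfect f hp (c := ⟨y, hYD hy⟩) hy
  intro y hy i w hw
  have h2 := hf ⟨y, hYD hy⟩ i
  rw [h1 y hy] at h2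
  have h3 : D ((1 : Equiv.Perm (Fin t)) i) = D i := rfl
  rw [h3] at h2
  rw [← h2]
  exact ⟨w, hw, by rw [Matrix.toLin'_apply]⟩

end decomp

section sub

variable {ι : Type} [Fintype ι] [DecidableEq ι] {F : Type*} [Field F] {F₀ : Subfield F} {P : GL ι F}

/-- A perfect subgroup of a subfield group is rational. -/
theorem perfect_rational {Y : Subgroup (GL ι F)} (hY : ⁅Y, Y⁆ = Y) (hYS : Y ≤ subfieldSubgroup F₀ P) :
    ∀ y ∈ Y, ∀ i j, ((P⁻¹ * y * P : GL ι F) : Matrix ι ι F) i j ∈ F₀ := by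
  set L : Subgroup (GL ι F) := (Matrix.GeneralLinearGroup.map (F₀.subtype : F₀ →+* F)).range.map
    (MulAut.conj P).toMonoidHom with hL
  have h1 : Y ≤ L := by
    rw [← hY, Subgroup.commutator_le]
    have key : ∀ a ∈ Y, ∃ a₀ ∈ L, ∃ z ∈ scalars ι F, a = a₀ * z := by
      intro a ha
      obtain ⟨x, hx, rfl⟩ := hYS ha
      rw [SetLike.mem_coe, Subgroup.mem_sup_of_normal_right] at hx
      obtain ⟨y, hy, z, hz, rfl⟩ := hx
      refine ⟨_, ⟨y, hy, rfl⟩, z, hz, ?_⟩
      rw [map_mul]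
      congr 1
      change P * z * P⁻¹ = z
      rw [← H917.scalars_comm hz P, mul_inv_cancel_right]
    intro a ha b hb
    obtain ⟨a₀, ha₀, z, hz, rfl⟩ := key a ha
    obtain ⟨b₀, hb₀, w, hw, rfl⟩ := key b hb
    rw [H917.commutator_mul_scalars hz hw]
    exact mul_mem (mul_mem (mul_mem ha₀ hb₀) (inv_mem ha₀)) (inv_mem hb₀)
  intro y hy i j
  obtain ⟨_, ⟨a, rfl⟩, rfl⟩ := h1 hy
  have e : P⁻¹ * ((MulAut.conj P).toMonoidHom (Matrix.GeneralLinearGroup.map (F₀.subtype : F₀ →+* F) a)) * P =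
      Matrix.GeneralLinearGroup.map (F₀.subtype : F₀ →+* F) a := by
    change P⁻¹ * (P * _ * P⁻¹) * P = _
    group
  rw [e]
  change F₀.subtype ((a : Matrix ι ι F₀) i j) ∈ F₀
  exact ((a : Matrix ι ι F₀) i j).2

end sub

section six

variable {F : Type*} [Field F] {R : Subgroup (GL (Fin 4) F)} {C : Coord R 2 2} {Y : Subgroup (GL (Fin 4) F)}

theorem chi_zero (C : Coord R 2 2) : C.χ 0 = 1 := AddChar.map_zero_eq_one _

theorem chi_one (C : Coord R 2 2) : C.χ 1 = -1 := by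
  have h1 : C.χ 1 * C.χ 1 = 1 := by
    rw [← AddChar.map_add_eq_mul]
    have : (1 : ZMod 2) + 1 = 0 := by decide
    rw [this, chi_zero]
  rcases mul_self_eq_one_iff.1 h1 with h | h
  · exfalso
    have := C.inj (h.trans (chi_zero C).symm)
    exact one_ne_zero this
  · exact h

theorem val_pow_of_smul {z : GL (Fin 4) F} {c : F} (hz : (z : Matrix (Fin 4) (Fin 4) F) = c • (1 : Matrix (Fin 4) (Fin 4) F))
    (n : ℕ) : ((z ^ n : GL (Fin 4) F) : Matrix (Fin 4) (Fin 4) F) = c ^ n • (1 : Matrix (Fin 4) (Fin 4) F) := by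
  rw [Units.val_pow_eq_pow_val, hz, smul_pow, one_pow]

theorem smul_one_inj {c d : F} (h : c • (1 : Matrix (Fin 4) (Fin 4) F) = d • (1 : Matrix (Fin 4) (Fin 4) F)) : c = d := by
  have h7 := congrFun (congrFun h 0) 0
  simpa using h7

theorem C6.pow_four (h : C6 R) {x : GL (Fin 4) F} (hx : x ∈ R) : x ^ 4 = 1 := by
  have h1 := Monoid.pow_exponent_eq_one (⟨x, hx⟩ : R)
  rw [h.typ.exponent_eq] at h1
  have h2 : 2 * Nat.gcd 2 2 = 4 := by norm_num
  rw [h2] at h1
  exact congrArg Subtype.val h1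

/-- The core of the argument for classes 7 and 8: `Y` is not rational over a subfield where `-1` is not a square. -/
theorem Part.not_rational (hY : Part C Y) (h : C6 R) {F₀ : Subfield F} {P : GL (Fin 4) F}
    (hns : ∀ c ∈ F₀, c ^ 2 ≠ -1) (h2 : (2 : F) ≠ 0) (hYS : Y ≤ subfieldSubgroup F₀ P) : False := by
  have hrat := perfect_rational hY.perfect hYS
  -- scalars in `Y` are in `F₀`
  have hsc : ∀ y ∈ Y, ∀ c : F, (y : Matrix (Fin 4) (Fin 4) F) = c • (1 : Matrix (Fin 4) (Fin 4) F) → c ∈ F₀ := by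
    intro y hy c hc
    have h1 := hrat y hy 0 0
    have h3 : ((P⁻¹ * y * P : GL (Fin 4) F) : Matrix (Fin 4) (Fin 4) F) = c • (1 : Matrix (Fin 4) (Fin 4) F) := by
      rw [Units.val_mul, Units.val_mul, hc, Matrix.mul_smul, Matrix.mul_one, Matrix.smul_mul, ← Units.val_mul,
        inv_mul_cancel, Units.val_one]
    rw [h3] at h1
    simpa using h1
  -- squares
  have hsq : ∀ x : R, (x : GL (Fin 4) F) ∈ Y → ∃ e : F, (e = 1 ∨ e = -1) ∧
      (((x : GL (Fin 4) F) ^ 2 : GL (Fin 4) F) : Matrix (Fin 4) (Fin 4) F) = e • (1 : Matrix (Fin 4) (Fin 4) F) := by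
    intro x _
    obtain ⟨c, hc⟩ := (mem_scalars_iff _).1 (h.sq_mem x.2)
    refine ⟨c, ?_, hc⟩
    have h4 := h.pow_four x.2
    have h5 : (c : F) ^ 2 = 1 := by
      have h6 := val_pow_of_smul hc 2
      rw [← pow_mul, h4, Units.val_one] at h6
      exact (smul_one_inj (h6.symm.trans (one_smul F _).symm))
    exact mul_self_eq_one_iff.1 (by rw [← pow_two]; exact h5)
  -- the square depends only on the class
  have hcl : ∀ x x' : R, (x : GL (Fin 4) F) ∈ Y → (x' : GL (Fin 4) F) ∈ Y → C.φ x = C.φ x' →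
      (x : GL (Fin 4) F) ^ 2 = (x' : GL (Fin 4) F) ^ 2 := by
    intro x x' hx hx' hxx
    rw [C.φ_eq_iff, Subgroup.coe_mul, Subgroup.coe_inv] at hxx
    obtain ⟨c, hc⟩ := (mem_scalars_iff _).1 hxx
    have hcF := hsc _ (Y.mul_mem (Y.inv_mem hx) hx') c hc
    obtain ⟨e, he, hxe⟩ := hsq x hx
    obtain ⟨e', he', hxe'⟩ := hsq x' hx'
    have h1 : (x' : GL (Fin 4) F) ^ 2 = (x : GL (Fin 4) F) ^ 2 * ((x : GL (Fin 4) F)⁻¹ * x') ^ 2 := by
      have hz := scalars_comm hxx
      have h3 : (x' : GL (Fin 4) F) = x * ((x : GL (Fin 4) F)⁻¹ * x') := by group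
      conv_lhs => rw [h3]
      have hcm : Commute (x : GL (Fin 4) F) ((x : GL (Fin 4) F)⁻¹ * x') := (hz _).symm
      rw [hcm.mul_pow]
    have h3 : e' = e * (c : F) ^ 2 := by
      apply smul_one_inj
      rw [← hxe', h1, Units.val_mul, hxe, val_pow_of_smul hc, Matrix.smul_mul, Matrix.one_mul, smul_smul]
    have h4 : (c : F) ^ 2 = 1 := by
      have hne := hns c hcF
      rcases he with rfl | rfl <;> rcases he' with rfl | rfl
      · rw [one_mul] at h3; exact h3.symm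
      · rw [one_mul] at h3; exact absurd h3.symm hne
      · exfalso; apply hne
        linear_combination h3
      · linear_combination h3
    have h5 : ((x : GL (Fin 4) F)⁻¹ * x') ^ 2 = 1 := by
      apply Units.ext
      rw [val_pow_of_smul hc, h4, one_smul, Units.val_one]
    rw [h1, h5, mul_one]
  obtain ⟨x₀, hx₀, hx₀Y⟩ := hY.exists_mem_inf (Pi.single (Sum.inl 0) 1)
  have hx₀0 : C.φ x₀ ≠ 0 := by
    rw [hx₀]
    intro h0
    have := congrFun h0 (Sum.inl 0)
    rw [Pi.single_eq_same] at this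
    exact one_ne_zero this
  obtain ⟨e, he, hxe⟩ := hsq x₀ hx₀Y
  have hall : ∀ x : R, (x : GL (Fin 4) F) ∈ Y → C.φ x ≠ 0 →
      (((x : GL (Fin 4) F) ^ 2 : GL (Fin 4) F) : Matrix (Fin 4) (Fin 4) F) = e • (1 : Matrix (Fin 4) (Fin 4) F) := by
    intro x hx hx0
    obtain ⟨g, hg, y, hy, hyx⟩ := hY.trans hx₀0 hx0
    have hyY : (y : GL (Fin 4) F) ∈ Y := by
      rw [← hy]
      exact Y.mul_mem (Y.mul_mem hg hx₀Y) (Y.inv_mem hg)
    rw [← hcl y x hyY hx hyx, ← hy, conj_pow, Units.val_mul, Units.val_mul, hxe, Matrix.mul_smul, Matrix.mul_one,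
      Matrix.smul_mul, Units.mul_inv]
  have hpair : ∀ a b : Fin 2 ⊕ Fin 2 → ZMod 2, a ≠ 0 → b ≠ 0 → a + b ≠ 0 → e = C.χ (sympForm 2 (ZMod 2) b a) := by
    intro a b ha hb hab
    obtain ⟨x, rfl, hxY⟩ := hY.exists_mem_inf a
    obtain ⟨y, rfl, hyY⟩ := hY.exists_mem_inf b
    have h1 := hall x hxY ha
    have h3 := hall y hyY hb
    have h4 := hall (x * y) (Y.mul_mem hxY hyY) (by rw [C.map_mul]; exact hab)
    rw [Subgroup.coe_mul, Units.val_pow_eq_pow_val, Units.val_mul, pow_two] at h4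
    rw [Units.val_pow_eq_pow_val, pow_two] at h1 h3
    have h5 := C.comm y x
    have h6 : ((x : GL (Fin 4) F) : Matrix (Fin 4) (Fin 4) F) * ((y : GL (Fin 4) F) : Matrix (Fin 4) (Fin 4) F) *
        (((x : GL (Fin 4) F) : Matrix (Fin 4) (Fin 4) F) * ((y : GL (Fin 4) F) : Matrix (Fin 4) (Fin 4) F)) =
        (C.χ (sympForm 2 (ZMod 2) (C.φ y) (C.φ x)) * (e * e)) • (1 : Matrix (Fin 4) (Fin 4) F) := by
      rw [Matrix.mul_assoc, ← Matrix.mul_assoc ((y : GL (Fin 4) F) : Matrix (Fin 4) (Fin 4) F), h5, Matrix.smul_mul,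
        Matrix.mul_smul, Matrix.mul_assoc, h3, Matrix.mul_smul, Matrix.mul_smul, Matrix.mul_one, h1, smul_smul, smul_smul, mul_assoc]
    rw [h6] at h4
    have h7 := smul_one_inj h4
    have h8 : e * e = 1 := by rcases he with rfl | rfl <;> ring
    rw [← h7, h8, mul_one]
  have e1 := hpair (Pi.single (Sum.inl 0) 1) (Pi.single (Sum.inl 1) 1) (by decide) (by decide) (by decide)
  have e2 := hpair (Pi.single (Sum.inl 0) 1) (Pi.single (Sum.inr 0) 1) (by decide) (by decide) (by decide)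
  have s1 : sympForm 2 (ZMod 2) (Pi.single (Sum.inl 1) 1) (Pi.single (Sum.inl 0) 1) = 0 := by decide
  have s2 : sympForm 2 (ZMod 2) (Pi.single (Sum.inr 0) 1) (Pi.single (Sum.inl 0) 1) = 1 := by decide
  rw [s1, chi_zero] at e1
  rw [s2, chi_one] at e2
  apply h2
  linear_combination (e1.symm.trans e2)

/-- `Sp_4(2)` acting on `F_2^4` -/
@[reducible] def spAction : MulAction Sp42 (Fin 2 ⊕ Fin 2 → ZMod 2) where
  smul A v := (A : Matrix (Fin 2 ⊕ Fin 2) (Fin 2 ⊕ Fin 2) (ZMod 2)) *ᵥ v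
  one_smul v := by
    change ((1 : Sp42) : Matrix (Fin 2 ⊕ Fin 2) (Fin 2 ⊕ Fin 2) (ZMod 2)) *ᵥ v = v
    rw [coe_one_sp, Matrix.one_mulVec]
  mul_smul A B v := Cfsg.Agent.ClassicalGeometry.SympBasic.coe_mul_mulVec A B v

/-- A 2-group mapping to `Sp_4(2)` fixes a non-zero vector. -/
theorem exists_fixed_vector {G : Type*} [Group G] (hG : IsPGroup 2 G) (f : G →* Sp42) :
    ∃ v : Fin 2 ⊕ Fin 2 → ZMod 2, v ≠ 0 ∧ ∀ g,
      (f g : Matrix (Fin 2 ⊕ Fin 2) (Fin 2 ⊕ Fin 2) (ZMod 2)) *ᵥ v = v := by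
  let _ : MulAction Sp42 (Fin 2 ⊕ Fin 2 → ZMod 2) := spAction
  let _ : MulAction G (Fin 2 ⊕ Fin 2 → ZMod 2) := MulAction.compHom _ f
  have hsm : ∀ (g : G) (v : Fin 2 ⊕ Fin 2 → ZMod 2), g • v =
      (f g : Matrix (Fin 2 ⊕ Fin 2) (Fin 2 ⊕ Fin 2) (ZMod 2)) *ᵥ v := fun _ _ => rfl
  have h2 : Fact (Nat.Prime 2) := ⟨Nat.prime_two⟩
  obtain ⟨v, hv, hv0⟩ := hG.exists_fixed_point_of_prime_dvd_card_of_fixed_point (Fin 2 ⊕ Fin 2 → ZMod 2)
    (by rw [Nat.card_eq_fintype_card]; decide) (a := 0) (by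
      intro g
      rw [hsm, Matrix.mulVec_zero])
  exact ⟨v, Ne.symm hv0, fun g => by rw [← hsm]; exact hv g⟩

/-- fourth roots of unity are in `R` -/
theorem C6.root_mem (h : C6 R) {z : GL (Fin 4) F} (hz : z ∈ scalars (Fin 4) F) (hz4 : z ^ 4 = 1) : z ∈ R := by
  have hfin := h.finite
  obtain ⟨z₀, i, hi, hz₀, -⟩ := exists_i_of_type h.typ h.abs h.cen
  obtain ⟨c, hc⟩ := (mem_scalars_iff z).1 hz
  have h1 : ((c : F) ^ 2 - 1) * ((c : F) ^ 2 + 1) = 0 := by
    have h3 := val_pow_of_smul hc 4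
    rw [hz4, Units.val_one] at h3
    have h4 := smul_one_inj ((one_smul F _).trans h3)
    linear_combination -h4
  have key : ∃ k : ℕ, (c : F) = i ^ k := by
    rcases mul_eq_zero.1 h1 with h | h
    · have h3 : ((c : F) - 1) * (c + 1) = 0 := by linear_combination h
      rcases mul_eq_zero.1 h3 with h | h
      · exact ⟨0, by rw [pow_zero]; linear_combination h⟩
      · exact ⟨2, by rw [hi]; linear_combination h⟩
    · have h3 : ((c : F) - i) * (c + i) = 0 := by linear_combination h - hi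
      rcases mul_eq_zero.1 h3 with h | h
      · exact ⟨1, by rw [pow_one]; linear_combination h⟩
      · exact ⟨3, by
          have : i ^ 3 = i ^ 2 * i := by ring
          rw [this, hi]; linear_combination h⟩
  obtain ⟨k, hk⟩ := key
  have : z = (z₀ : GL (Fin 4) F) ^ k := by
    apply Units.ext
    rw [hc, val_pow_of_smul hz₀, hk]
  rw [this]
  exact R.pow_mem z₀.2 k

/-- `Y ≤ N(R')` implies `R' = R`. -/
theorem Part.eq_of_le_normalizer (hY : Part C Y) (h : C6 R) {R' : Subgroup (GL (Fin 4) F)} (h' : C6 R')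
    (hYR : Y ≤ subgroupNormalizer R') : R = R' := by
  have hfin := h.finite
  have hfin' := h'.finite
  obtain ⟨C', -⟩ := h'.exists_coord
  have hp : IsPGroup 2 (R ⊓ Y : Subgroup (GL (Fin 4) F)) := h.typ.pGroup.to_le inf_le_left
  obtain ⟨v, hv0, hv⟩ := exists_fixed_vector hp
    ((indHom C').comp (Subgroup.inclusion ((inf_le_right : R ⊓ Y ≤ Y).trans hYR)))
  obtain ⟨x', hx'⟩ := C'.surj v
  -- `x'` centralises `R ⊓ Y` modulo scalars
  have h1 : ∀ r ∈ R, r ∈ Y → r⁻¹ * ((x' : GL (Fin 4) F) * r * (x' : GL (Fin 4) F)⁻¹) ∈ scalars (Fin 4) F := by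
    intro r hr hrY
    have h3 := indHom_ind C' ⟨r, hYR hrY⟩ x'
    obtain ⟨y', h4, h5⟩ := h3
    have h6 := hv ⟨r, hr, hrY⟩
    change (indHom C' ⟨r, hYR hrY⟩ : Matrix (Fin 2 ⊕ Fin 2) (Fin 2 ⊕ Fin 2) (ZMod 2)) *ᵥ v = v at h6
    rw [hx', h6, ← hx'] at h5
    rw [C'.φ_eq_iff, Subgroup.coe_mul, Subgroup.coe_inv, ← h4] at h5
    have h7 := (inferInstance : (scalars (Fin 4) F).Normal).conj_mem _ h5 (r⁻¹ * (x' : GL (Fin 4) F))
    have e : r⁻¹ * (x' : GL (Fin 4) F) * ((r * (x' : GL (Fin 4) F) * r⁻¹)⁻¹ * x') * (r⁻¹ * (x' : GL (Fin 4) F))⁻¹ =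
        r⁻¹ * ((x' : GL (Fin 4) F) * r * (x' : GL (Fin 4) F)⁻¹) := by group
    rwa [e] at h7
  -- scalars quotient of elements of exponent 4
  have hroot : ∀ a b : GL (Fin 4) F, a ^ 4 = 1 → b ^ 4 = 1 → a⁻¹ * b ∈ scalars (Fin 4) F → (a⁻¹ * b) ^ 4 = 1 := by
    intro a b ha hb hs
    have hcm : Commute a (a⁻¹ * b) := (scalars_comm hs a).symm
    have h3 := hcm.mul_pow 4
    rw [mul_inv_cancel_left, ha, hb, one_mul] at h3
    exact h3.symm
  have hind : C.Ind (x' : GL (Fin 4) F) 1 := by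
    intro y
    obtain ⟨r, hr, hrY⟩ := hY.exists_mem_inf (C.φ y)
    have hry : (r : GL (Fin 4) F)⁻¹ * y ∈ scalars (Fin 4) F := by
      have := (C.φ_eq_iff r y).1 hr
      rwa [Subgroup.coe_mul, Subgroup.coe_inv] at this
    have ht := h1 r r.2 hrY
    set t := (r : GL (Fin 4) F)⁻¹ * ((x' : GL (Fin 4) F) * r * (x' : GL (Fin 4) F)⁻¹) with htdef
    have ht4 : t ^ 4 = 1 := by
      apply hroot _ _ (h.pow_four r.2) _ ht
      rw [conj_pow, h.pow_four r.2, mul_one, mul_inv_cancel]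
    have htR := h.root_mem ht ht4
    refine ⟨y * ⟨t, htR⟩, ?_, ?_⟩
    · rw [Subgroup.coe_mul]
      have e1 : (y : GL (Fin 4) F) = r * ((r : GL (Fin 4) F)⁻¹ * y) := by group
      have e2 : (x' : GL (Fin 4) F) * r * (x' : GL (Fin 4) F)⁻¹ = r * t := by rw [htdef]; group
      calc (x' : GL (Fin 4) F) * y * (x' : GL (Fin 4) F)⁻¹
          = (x' : GL (Fin 4) F) * (r * ((r : GL (Fin 4) F)⁻¹ * y)) * (x' : GL (Fin 4) F)⁻¹ := by rw [← e1]
        _ = (x' : GL (Fin 4) F) * r * (((r : GL (Fin 4) F)⁻¹ * y) * (x' : GL (Fin 4) F)⁻¹) := by group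
        _ = (x' : GL (Fin 4) F) * r * ((x' : GL (Fin 4) F)⁻¹ * ((r : GL (Fin 4) F)⁻¹ * y)) := by
            rw [scalars_comm hry]
        _ = ((x' : GL (Fin 4) F) * r * (x' : GL (Fin 4) F)⁻¹) * ((r : GL (Fin 4) F)⁻¹ * y) := by group
        _ = r * (t * ((r : GL (Fin 4) F)⁻¹ * y)) := by rw [e2, mul_assoc]
        _ = r * (((r : GL (Fin 4) F)⁻¹ * y) * t) := by rw [scalars_comm ht]
        _ = y * t := by group
    · rw [C.map_mul, Matrix.one_mulVec, (C.ker_iff ⟨t, htR⟩).2 ht, add_zero]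
  obtain ⟨x, hx⟩ := C.mem_of_ind_one h.abs hind
  have hx0 : C.φ x ≠ 0 := by
    intro h0
    have h3 := (C.ker_iff x).1 h0
    have h4 := (scalars (Fin 4) F).mul_mem h3 hx
    rw [mul_inv_cancel_left] at h4
    exact hv0 (by rw [← hx']; exact (C'.ker_iff x').2 h4)
  have hle : R ≤ R' := by
    intro r hr
    by_cases h0 : C.φ ⟨r, hr⟩ = 0
    · exact h'.root_mem ((C.ker_iff _).1 h0) (h.pow_four hr)
    obtain ⟨g, hg, y, hy, hyr⟩ := hY.trans hx0 h0
    have hn := hYR hg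
    rw [subgroupNormalizer, Subgroup.mem_normalizer_iff] at hn
    have h3 : g * x' * g⁻¹ ∈ R' := (hn x').1 x'.2
    have h4 : (y : GL (Fin 4) F)⁻¹ * r ∈ scalars (Fin 4) F := by
      have := (C.φ_eq_iff y ⟨r, hr⟩).1 hyr
      rwa [Subgroup.coe_mul, Subgroup.coe_inv] at this
    have h5 : g * x' * g⁻¹ = y * ((x : GL (Fin 4) F)⁻¹ * x') := by
      rw [← hy]
      calc g * (x' : GL (Fin 4) F) * g⁻¹ = g * x * (((x : GL (Fin 4) F)⁻¹ * x') * g⁻¹) := by group
        _ = g * x * (g⁻¹ * ((x : GL (Fin 4) F)⁻¹ * x')) := by rw [scalars_comm hx]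
        _ = g * x * g⁻¹ * ((x : GL (Fin 4) F)⁻¹ * x') := by group
    have h6 : (g * x' * g⁻¹)⁻¹ * r ∈ scalars (Fin 4) F := by
      rw [h5]
      have e : (y * ((x : GL (Fin 4) F)⁻¹ * x'))⁻¹ * r = ((x : GL (Fin 4) F)⁻¹ * x')⁻¹ * ((y : GL (Fin 4) F)⁻¹ * r) := by group
      rw [e]
      exact mul_mem (inv_mem hx) h4
    have h7 := hroot _ _ (h'.pow_four h3) (h.pow_four hr) h6
    have h8 := R'.mul_mem h3 (h'.root_mem h6 h7)
    rwa [mul_inv_cancel_left] at h8
  exact Subgroup.eq_of_le_of_card_ge hle (by rw [h.card, h'.card])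

end six

section main

variable {F : Type*} [Field F] [Fintype F] {q : ℕ}

omit [Fintype F] in
theorem herm_single : hermForm 4 F q (Pi.single 0 1) (Pi.single 0 1) = 1 := by
  rw [herm_def]
  rw [Finset.sum_eq_single 0]
  · simp
  · intro b _ hb
    rw [Pi.single_eq_of_ne hb, zero_mul]
  · intro h; exact absurd (Finset.mem_univ _) h

/-- the arithmetic of subfields of odd index in `F_{p²}` -/
theorem no_odd_sub (hF : Fintype.card F = q ^ 2) (hq : q.Prime) {F₀ : Subfield F} {r : ℕ} (hr : r.Prime)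
    (hro : Odd r) (h : Fintype.card F = Nat.card F₀ ^ r) : False := by
  rw [hF] at h
  have h1 : Nat.card F₀ ∣ q ^ 2 := by
    rw [h]; exact dvd_pow_self _ hr.ne_zero
  obtain ⟨k, hk, hk'⟩ := (Nat.dvd_prime_pow hq).1 h1
  rw [hk', ← pow_mul] at h
  have h2 := Nat.pow_right_injective hq.two_le h
  have h3 : r ∣ 2 := ⟨k, by rw [h2, mul_comm]⟩
  have h4 := (Nat.prime_dvd_prime_iff_eq hr Nat.prime_two).1 h3
  rw [h4] at hro
  exact absurd hro (by decide)

theorem no_sqrt (hF : Fintype.card F = q ^ 2) (hq : q % 4 = 3) (h2 : (2 : F) ≠ 0) {F₀ : Subfield F}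
    (h : Fintype.card F = Nat.card F₀ ^ 2) : ∀ c ∈ F₀, c ^ 2 ≠ -1 := by
  intro c hc h1
  rw [H927.mem_iff_pow hF h] at hc
  have hk : q = 2 * (2 * (q / 4) + 1) + 1 := by omega
  rw [hk, pow_succ, pow_mul, h1, pow_add, pow_mul, neg_one_sq, one_pow, one_mul, pow_one] at hc
  have h3 : (2 : F) * c = 0 := by linear_combination -hc
  rcases mul_eq_zero.1 h3 with h | h
  · exact h2 h
  · rw [h] at h1
    norm_num at h1

/-- **Item (9)**: the normaliser of `4 ∘ 2^{1+4}` is maximal in `SU_4(p)`, `p ≡ 3 mod 4`. -/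
theorem cliff_maximal (hRes : Res F q) (hF : Fintype.card F = q ^ 2) (hq : q.Prime) (h34 : q % 4 = 3)
    {R : Subgroup (GL (Fin 4) F)} (h : C6 R) (hRU : R ≤ GU 4 F q) :
    IsMaximalIn (GU 4 F q ⊓ specialLinear (Fin 4) F)
      (subgroupNormalizer R ⊓ (GU 4 F q ⊓ specialLinear (Fin 4) F)) := by
  have hodd : Odd q := by rw [Nat.odd_iff]; omega
  have h2 : (2 : F) ≠ 0 := H927.two_ne_zero_of_odd hF hodd
  have hfin := h.finite
  obtain ⟨C, Y, hY⟩ := h.exists_part
  have hYSU := hY.le_SU hF h hRU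
  apply isMaximalIn_of_forall
  · refine lt_of_le_of_ne inf_le_right (fun heq => ?_)
    have hRsim : R ≤ similarityGroup (hermForm 4 F q) := by
      intro g hg
      exact ⟨1, fun u v => by rw [Units.val_one, one_mul]; exact hRU hg u v⟩
    have hsol : Group.IsSolvable R := by
      have := h.typ.pGroup
      have h2p : Fact (Nat.Prime 2) := ⟨Nat.prime_two⟩
      have := this.isNilpotent
      infer_instance
    have hns : ¬ R ≤ scalars (Fin 4) F := by
      intro hle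
      have h3 : Subgroup.center R = ⊤ := by
        rw [eq_top_iff]
        intro x _
        exact mem_center_of_mem_scalars h.abs (hle x.2)
      have h4 := h.cen
      rw [h3, Subgroup.card_top, h.card] at h4
      norm_num at h4
    exact H918.SUg_not_le_subgroupNormalizer hF (by norm_num) (by norm_num) hRsim hsol hns (inf_eq_right.1 heq)
  intro M hM hHM
  have hYM : Y ≤ M := (le_inf hY.le hYSU).trans hHM
  -- irreducibility
  have hirr : ∀ W : Submodule F (Fin 4 → F), Y ≤ subspaceStabilizer W → W = ⊥ ∨ W = ⊤ := by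
    intro W hW
    apply hY.irreducible h
    intro y hy w hw
    exact (H918.mem_subspaceStabilizer.1 (hW hy) w).1 hw
  have hdec : ∀ {t m : ℕ} {D : Fin t → Submodule F (Fin 4 → F)}, IsMDecomposition m D → t ≤ 4 → 1 ≤ m → m < 4 →
      ¬ Y ≤ decompositionStabilizer D := by
    intro t m D hD ht hm hm4 hle
    have hsol : Group.IsSolvable (Equiv.Perm (Fin t)) :=
      H76.PermFour.solvable_perm_of_card_le (by rw [Nat.card_eq_fintype_card, Fintype.card_fin]; exact ht)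
    have h3 := perfect_fix (H918.decomp_injective hD) hsol hY.perfect hle
    have ht2 := hD.two_le
    have h4 := hD.finrank_eq ⟨0, by omega⟩
    rcases hY.irreducible h (fun y hy w hw => h3 y hy ⟨0, by omega⟩ w hw) with h5 | h5
    · rw [h5, finrank_bot] at h4; omega
    · rw [h5, finrank_top, Module.finrank_fin_fun] at h4; omega
  rcases Cfsg.Agent.S5784.result q hF M hM with ⟨W, hW0, hW, rfl⟩ | ⟨W, hW0, hW, hWd, rfl⟩ | ⟨-, D, hD, rfl⟩ |
    ⟨-, D, hD, rfl⟩ | ⟨-, D, hD, -, rfl⟩ | ⟨F₀, r, P, hr, hro, hcard, -, rfl⟩ | ⟨F₀, P, ζ, hcard, -, -, -, -, rfl⟩ |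
    ⟨-, F₀, P, hcard, -, rfl⟩ | ⟨p, R', hp, hqp, hp4, hR', habs', hsim', hcard', hcen', rfl⟩ | hres
  · exfalso
    rcases hirr W (hYM.trans inf_le_left) with h3 | h3
    · exact hW0 h3
    · have := hW (Pi.single 0 1) (by rw [h3]; trivial) (Pi.single 0 1) (by rw [h3]; trivial)
      rw [herm_single] at this
      exact one_ne_zero this
  · exfalso
    rcases hirr W (hYM.trans inf_le_left) with h3 | h3
    · exact hW0 h3
    · rw [h3, finrank_top, Module.finrank_fin_fun] at hWd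
      omega
  · exact absurd (hYM.trans inf_le_left) (hdec hD.decomp (by norm_num) (by norm_num) (by norm_num))
  · exact absurd (hYM.trans inf_le_left) (hdec hD.decomp (by norm_num) (by norm_num) (by norm_num))
  · exact absurd (hYM.trans inf_le_left) (hdec hD (by norm_num) (by norm_num) (by norm_num))
  · exact (no_odd_sub hF hq hr hro hcard).elim
  · exact (hY.not_rational h (no_sqrt hF h34 h2 hcard) h2 (hYM.trans inf_le_left)).elim
  · exact (hY.not_rational h (no_sqrt hF h34 h2 hcard) h2 (hYM.trans inf_le_left)).elim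
  · have h' : C6 R' := ⟨hR', habs', hcard', hcen'⟩
    rw [hY.eq_of_le_normalizer h h' (hYM.trans inf_le_left)]
  · exfalso
    have h3 := hRes.perfect hM hres hYM hY.perfect
    have h4 := hY.index_dvd
    rcases h3 with h3 | h3 | h3
    · exact absurd (h4.trans h3) (by norm_num)
    · exact absurd (h4.trans h3) (by norm_num)
    · exact absurd (h4.trans h3) (by norm_num)

end main

end Cfsg.Agent.H900.SU4
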