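import Cfsg.Agent.H920.CsData
import Cfsg.Agent.LieClassical.SpFourTwo
import Cfsg.Agent.LieClassical.SympPerfect

/-!
# The groups `4 ∘ 2^{1+4}` in `GL_4(F)`: coordinates, elements of order prime to 30, the perfect part

* `K6` : the subgroup `A_6` of `Sp_4(2) ≃ S_6`; it is perfect and transitive on non-zero vectors.
* `C6 R` : the hypotheses on `R`.
* `C6.mem_scalars` : `g ∈ N(R)`, `g ^ p = 1`, `p` prime to 30 : `g` is a scalar.
* `C6.exists_part` : a perfect `Y ⊴ N(R)` inducing `A_6`, with `R ≤ Y (scalars)`.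
-/

set_option autoImplicit false
open Cfsg
open scoped Matrix MatrixGroups commutatorElement

namespace Cfsg.Agent.H900.SU4

open Cfsg.Geo Cfsg.Agent.H920 Cfsg.Agent.LieClassical.SpFourTwo Cfsg.Agent.ClassicalGeometry.SympBasic

/-- `Sp_4(2)` -/
abbrev Sp42 := Matrix.symplecticGroup (Fin 2) (ZMod 2)

/-- the subgroup `A_6` of `Sp_4(2)` -/
noncomputable def K6 : Subgroup Sp42 := (alternatingGroup (Fin 6)).comap spFourTwoEquiv.toMonoidHom

theorem card_Sp42 : Nat.card Sp42 = 720 := by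
  rw [Nat.card_congr spFourTwoEquiv.toEquiv, Nat.card_perm, Nat.card_eq_fintype_card, Fintype.card_fin]
  rfl

theorem K6_map : K6.map spFourTwoEquiv.toMonoidHom = alternatingGroup (Fin 6) :=
  Subgroup.map_comap_eq_self_of_surjective spFourTwoEquiv.surjective _

theorem five_le_six : 5 ≤ Nat.card (Fin 6) := by
  rw [Nat.card_eq_fintype_card, Fintype.card_fin]; norm_num

theorem K6_perfect : ⁅K6, K6⁆ = K6 := by
  apply Subgroup.map_injective (f := spFourTwoEquiv.toMonoidHom) spFourTwoEquiv.injective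
  rw [Subgroup.map_commutator, K6_map]
  exact commutator_alternatingGroup_eq_self five_le_six

theorem K6_index : K6.index = 2 := by
  have h : K6.index = (alternatingGroup (Fin 6)).index :=
    Subgroup.index_comap_of_surjective (f := spFourTwoEquiv.toMonoidHom) _ spFourTwoEquiv.surjective
  rw [h]
  exact alternatingGroup.index_eq_two

theorem K6_normal : K6.Normal := Subgroup.normal_of_index_eq_two K6_index

theorem card_K6 : Nat.card K6 = 360 := by
  have h := Subgroup.card_mul_index K6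
  rw [K6_index, card_Sp42] at h
  omega

theorem transv_zero_right {m : ℕ} {K : Type*} [Field K] (w : Fin m ⊕ Fin m → K) : transv w (0 : K) = 1 := by
  apply Subtype.ext
  rw [coe_transv, sympTransvection, zero_smul, add_zero]
  rfl

theorem transv_zero_left {m : ℕ} {K : Type*} [Field K] (c : K) : transv (0 : Fin m ⊕ Fin m → K) c = 1 := by
  apply Subtype.ext
  rw [coe_transv, sympTransvection]
  simp

/-- a normal subgroup of `Sp_4(2)` containing a non-trivial transvection is everything -/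
theorem eq_top_of_transv {K : Subgroup Sp42} (hn : K.Normal) {u : Fin 2 ⊕ Fin 2 → ZMod 2} (hu : u ≠ 0)
    (h : transv u 1 ∈ K) : K = ⊤ := by
  have hall : ∀ (w : Fin 2 ⊕ Fin 2 → ZMod 2) (c : ZMod 2), transv w c ∈ K := by
    intro w c
    have hc : c = 0 ∨ c = 1 := by revert c; decide
    rcases hc with rfl | rfl
    · rw [transv_zero_right]; exact one_mem _
    by_cases hw : w = 0
    · rw [hw, transv_zero_left]; exact one_mem _
    obtain ⟨A, -, hA⟩ := exists_transvGroup_mulVec_eq hu hw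
    have h1 := Cfsg.Agent.LieClassical.SympPerfect.conj_transv A u (1 : ZMod 2)
    rw [hA] at h1
    rw [← h1]
    exact hn.conj_mem _ h A
  rw [eq_top_iff, ← Cfsg.Agent.S0765.result (F := ZMod 2) 2, Subgroup.closure_le]
  rintro A ⟨w, c, hA⟩
  have : A = transv w c := Subtype.ext hA
  rw [this]
  exact hall w c

/-- a non-trivial transvection is not in `A_6` -/
theorem transv_not_mem {u : Fin 2 ⊕ Fin 2 → ZMod 2} (hu : u ≠ 0) : transv u 1 ∉ K6 := by
  intro h
  have h2 := K6_index
  rw [eq_top_of_transv K6_normal hu h, Subgroup.index_top] at h2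
  norm_num at h2

/-- `A_6` is transitive on non-zero vectors -/
theorem K6_trans {x y : Fin 2 ⊕ Fin 2 → ZMod 2} (hx : x ≠ 0) (hy : y ≠ 0) :
    ∃ A ∈ K6, (A : Matrix (Fin 2 ⊕ Fin 2) (Fin 2 ⊕ Fin 2) (ZMod 2)) *ᵥ x = y := by
  obtain ⟨A, -, hA⟩ := exists_transvGroup_mulVec_eq hx hy
  by_cases h : A ∈ K6
  · exact ⟨A, h, hA⟩
  · refine ⟨A * transv x 1, ?_, ?_⟩
    · rw [Subgroup.mul_mem_iff_of_index_two K6_index]
      exact ⟨fun h1 => absurd h1 h, fun h1 => absurd h1 (transv_not_mem hx)⟩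
    · rw [coe_mul_mulVec, coe_transv, sympTransvection_mulVec, sympForm_self, mul_zero, zero_smul, add_zero, hA]

section group

variable {F : Type*} [Field F] {R : Subgroup (GL (Fin 4) F)}

/-- The hypotheses on the groups `4 ∘ 2^{1+4}`. -/
structure C6 (R : Subgroup (GL (Fin 4) F)) : Prop where
  typ : IsSymplecticTypeGroup 2 R
  abs : ActsAbsolutelyIrreducibly (matrixSet R)
  card : Nat.card R = 64
  cen : Nat.card (Subgroup.center R) = 4

theorem C6.isType (h : C6 R) : IsType 2 2 R := Or.inr ⟨rfl, h.cen, by rw [h.card]; norm_num⟩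

theorem C6.finite (h : C6 R) : Finite R := Nat.finite_of_card_ne_zero (by rw [h.card]; norm_num)

/-- Coordinates; all elements of `Sp_4(2)` are induced. -/
theorem C6.exists_coord (h : C6 R) : ∃ C : Coord R 2 2, ∀ A : Sp42, ∃ g : GL (Fin 4) F,
    C.Ind g (A : Matrix (Fin 2 ⊕ Fin 2) (Fin 2 ⊕ Fin 2) (ZMod 2)) := by
  have hfin := h.finite
  obtain ⟨C⟩ := H920.exists_coord (r := 2) (k := 2) h.abs (comm_of_type h.typ h.abs h.isType) Nat.prime_two
    (by norm_num) (pow_of_type h.typ h.abs h.isType) (by rw [Fintype.card_fin]; norm_num)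
  refine ⟨C, fun A => ?_⟩
  apply C.exists_ind (by norm_num)
  · obtain ⟨z, i, h1, h2, -⟩ := exists_i_of_type h.typ h.abs h.cen
    exact Or.inr ⟨rfl, z, i, h1, h2⟩
  · intro v
    obtain ⟨x, rfl⟩ := C.surj v
    obtain ⟨z, hz, h⟩ := full_of_type h.typ h.abs h.isType x
    refine ⟨z * x, ?_, h⟩
    rw [C.map_mul, (C.ker_iff z).2 (mem_scalars_of_mem_center ‹C6 R›.abs hz), zero_add]

/-- squares of elements of `R` are scalars -/
theorem C6.sq_mem (h : C6 R) {x : GL (Fin 4) F} (hx : x ∈ R) : x ^ 2 ∈ scalars (Fin 4) F := by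
  have hfin := h.finite
  exact pow_of_type h.typ h.abs h.isType x hx

/-- Elements of order prime to 30 in `N(R)` are scalars. -/
theorem C6.mem_scalars (h : C6 R) {g : GL (Fin 4) F} (hg : g ∈ subgroupNormalizer R) {p : ℕ}
    (hp : Nat.Coprime p 30) (hgp : g ^ p = 1) : g ∈ scalars (Fin 4) F := by
  have hfin := h.finite
  obtain ⟨C, -⟩ := h.exists_coord
  obtain ⟨A, hA, hgA⟩ := C.exists_ind_of_mem hg
  have h1 : (⟨A, hA⟩ : Sp42) ^ p = 1 := by
    apply Subtype.ext
    have h2 := hgA.pow p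
    rw [hgp] at h2
    exact h2.unique (Coord.Ind.one C)
  have h2 : (⟨A, hA⟩ : Sp42) ^ 720 = 1 := by
    rw [← card_Sp42]; exact pow_card_eq_one'
  have hc : Nat.Coprime p 720 := by
    rw [show (720 : ℕ) = 30 * 24 by norm_num]
    refine Nat.Coprime.mul_right hp ?_
    have h6 : Nat.Coprime p (30 ^ 3) := Nat.Coprime.pow_right 3 hp
    exact Nat.Coprime.coprime_dvd_right (by norm_num) h6
  have h3 : (⟨A, hA⟩ : Sp42) = 1 := by
    have h4 := pow_gcd_eq_one.2 ⟨h1, h2⟩
    rwa [hc.gcd_eq_one, pow_one] at h4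
  have h4 : A = 1 := congrArg Subtype.val h3
  rw [h4] at hgA
  obtain ⟨x, hx⟩ := C.mem_of_ind_one h.abs hgA
  have hx2 := h.sq_mem x.2
  let π := QuotientGroup.mk' (scalars (Fin 4) F)
  have e1 : π x = π g := (QuotientGroup.eq (s := scalars (Fin 4) F)).2 hx
  have e2 : π g ^ 2 = 1 := by
    rw [← e1, ← map_pow]
    exact (QuotientGroup.eq_one_iff _).2 hx2
  have e3 : π g ^ p = 1 := by rw [← map_pow, hgp, map_one]
  have hc2 : Nat.Coprime 2 p := (Nat.Coprime.coprime_dvd_right (by norm_num) hp).symm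
  have e4 := pow_gcd_eq_one.2 ⟨e2, e3⟩
  rw [hc2.gcd_eq_one, pow_one] at e4
  exact (QuotientGroup.eq_one_iff _).1 e4

end group

end Cfsg.Agent.H900.SU4
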