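import Cfsg.Agent.H876.OMax
import Cfsg.Agent.H918.UProper
import Cfsg.Agent.H927.FrameTwo

/-!
# `SU_4(q)`: stabilisers of orthogonal decompositions into two 2-spaces are maximal, `q ≥ 3`
-/

set_option autoImplicit false
open Cfsg
open scoped Matrix MatrixGroups

namespace Cfsg.Agent.H900.SU4

open Cfsg.Agent.LieClassical.HermBasic Cfsg.Agent.ClassicalGeometry.UnitTransv
open Cfsg.Agent.ClassicalGeometry.HermOrtho Cfsg.Agent.H876

variable {F : Type*} [Field F] [Fintype F] {n q t : ℕ}
variable {D : Fin t → Submodule F (Fin n → F)} {π : Fin t → (Fin n → F) →ₗ[F] (Fin n → F)}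
  {M : Subgroup (GL (Fin n) F)} {k : ℕ}

/-- moving a non-isotropic component. -/
theorem pair_move_noniso (A : Amb q k D π M) (hk2 : 2 ≤ k) {i j : Fin t} (hij : i ≠ j)
    {w w' u : Fin n → F} (hw : w ∈ D i) (hw' : w' ∈ D i) (hu : u ∈ D j) (hw0 : w ≠ 0)
    (hn : hermForm n F q w w = hermForm n F q w' w') (hww' : hermForm n F q w' w' ≠ 0)
    (h : InS q M (w + u)) : InS q M (w' + u) := by
  obtain ⟨z, hz, hzw, hzz⟩ := exists_noniso_perp_two A.hF (A.od.nd i) (by rw [A.hk]; exact hk2) hw' hww'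
  have h1 : π i (w + u) = w := by rw [map_add, A.od.fix hw, A.od.zero hij hu, add_zero]
  have h2 : w + u - π i (w + u) + w' = w' + u := by rw [h1]; abel
  obtain ⟨g, hg, hgx⟩ := A.od.move1 A.hF A.hk (i := i) (x := w + u) hw' (by rw [h1]; exact hw0)
    (ne_zero_of_norm hww') (by rw [h1]; exact hn) hz hzz (by
      rw [h2, herm_add_left, herm_eq_zero_swap A.hF hzw, A.od.orth j i (Ne.symm hij) u hu z hz, add_zero])
  rw [h2] at hgx
  rw [← hgx]
  exact InS.map (A.hHM hg) hg.2.1 h

/-- all non-isotropic pairs from one. -/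
theorem all_noniso (A : Amb q k D π M) (hk2 : 2 ≤ k) {i j : Fin t} (hij : i ≠ j)
    {w u : Fin n → F} (hw : w ∈ D i) (hu : u ∈ D j) (hww : hermForm n F q w w ≠ 0)
    (h : InS q M (w + u)) : ∀ w' ∈ D i, ∀ u' ∈ D j, hermForm n F q w' w' ≠ 0 →
      hermForm n F q w' w' + hermForm n F q u' u' = 0 → InS q M (w' + u') := by
  have hF := A.hF
  have hperp := A.od.orth i j hij
  have hperp' := A.od.orth j i (Ne.symm hij)
  have hs : hermForm n F q w w + hermForm n F q u u = 0 := by
    have h1 := h.iso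
    rw [herm_add_left, herm_add_right hF, herm_add_right hF, hperp w hw u hu, hperp' u hu w hw] at h1
    linear_combination h1
  have huu : hermForm n F q u u ≠ 0 := by
    intro h0; apply hww; linear_combination hs - h0
  intro w' hw' u' hu' hww' hs'
  have huu' : hermForm n F q u' u' ≠ 0 := by
    intro h0; apply hww'; linear_combination hs' - h0
  obtain ⟨l, hl0, hl⟩ := exists_norm_eq_ne hF (c := hermForm n F q w' w' / hermForm n F q w w)
    (by rw [div_pow, herm_self_pow hF, herm_self_pow hF]) (div_ne_zero hww' hww)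
  have h1 := InS.smul hF h l
  rw [smul_add] at h1
  have e0 : l * l ^ q * hermForm n F q w w = hermForm n F q w' w' := by
    rw [hl, div_mul_cancel₀ _ hww]
  have e1 : hermForm n F q (l • w) (l • w) = hermForm n F q w' w' := by
    rw [herm_smul_left, herm_smul_right]
    linear_combination e0
  have e2 : hermForm n F q (l • u) (l • u) = hermForm n F q u' u' := by
    rw [herm_smul_left, herm_smul_right]
    linear_combination -e0 + (l * l ^ q) * hs - hs'
  have h2 := pair_move_noniso A hk2 hij ((D i).smul_mem _ hw) hw' ((D j).smul_mem _ hu)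
    (smul_ne_zero hl0 (ne_zero_of_norm hww)) e1 hww' h1
  rw [add_comm] at h2 ⊢
  exact pair_move_noniso A hk2 (Ne.symm hij) ((D j).smul_mem _ hu) hu' hw'
    (smul_ne_zero hl0 (ne_zero_of_norm huu)) e2 huu' h2

/-- all pairs from one non-isotropic pair. -/
theorem hp_of_noniso (A : Amb q k D π M) (hk2 : 2 ≤ k) (hq : 3 ≤ q) {i j : Fin t} (hij : i ≠ j)
    {w u : Fin n → F} (hw : w ∈ D i) (hu : u ∈ D j) (hww : hermForm n F q w w ≠ 0)
    (h : InS q M (w + u)) : HP q D M i j := by
  have hF := A.hF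
  have hperp := A.od.orth i j hij
  have hperp' := A.od.orth j i (Ne.symm hij)
  have hall := all_noniso A hk2 hij hw hu hww h
  intro w' hw' u' hu' hs'
  by_cases hww' : hermForm n F q w' w' = 0
  swap
  · exact hall w' hw' u' hu' hww' hs'
  have huu' : hermForm n F q u' u' = 0 := by linear_combination hs' - hww'
  by_cases hw0' : w' = 0
  · subst hw0'; rw [zero_add]; exact A.inS_of_mem hu' huu'
  by_cases hu0' : u' = 0
  · subst hu0'; rw [add_zero]; exact A.inS_of_mem hw' hww'
  obtain ⟨α, hα0, hα⟩ := exists_trace_zero_ne hF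
  obtain ⟨l, hl, hl0, hl1⟩ := exists_fixed_ne hF hq 1
  have hβ : (l * α) + (l * α) ^ q = 0 := by rw [mul_pow, hl]; linear_combination l * hα
  have hβ0 : l * α ≠ 0 := mul_ne_zero hl0 hα0
  have hγ : ((1 - l) * α) + ((1 - l) * α) ^ q = 0 := by
    rw [mul_pow, sub_pow_q hF, hl, one_pow]; linear_combination (1 - l) * hα
  have hγ0 : (1 - l) * α ≠ 0 := mul_ne_zero (sub_ne_zero.2 (Ne.symm hl1)) hα0
  obtain ⟨w1, hw1, hw1w', hw11⟩ := exists_vec hF (A.od.nd i) (by rw [A.hk]; omega) hw' hw0' (β := l * α)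
    (ν := 1) (one_pow q) (fun _ h => absurd h hβ0)
  obtain ⟨u1, hu1, hu1u', hu11⟩ := exists_vec hF (A.od.nd j) (by rw [A.hk]; omega) hu' hu0'
    (β := (1 - l) * α) (ν := -1) (by rw [neg_pow_q hF, one_pow]) (fun _ h => absurd h hγ0)
  have hw'w1 : hermForm n F q w1 w' = (l * α) ^ q := by rw [herm_swap hF w' w1, hw1w']
  have hu'u1 : hermForm n F q u1 u' = ((1 - l) * α) ^ q := by rw [herm_swap hF u' u1, hu1u']
  have h1 : InS q M (w1 + u1) := hall w1 hw1 u1 hu1 (by rw [hw11]; exact one_ne_zero)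
    (by rw [hw11, hu11]; ring)
  have e3 : hermForm n F q (w1 - w') (w1 - w') = 1 := by
    rw [herm_sub_left, herm_sub_right hF, herm_sub_right hF, hw11, hw1w', hw'w1, hww']
    linear_combination -hβ
  have e4 : hermForm n F q (u1 - u') (u1 - u') = -1 := by
    rw [herm_sub_left, herm_sub_right hF, herm_sub_right hF, hu11, hu1u', hu'u1, huu']
    linear_combination -hγ
  have h2 : InS q M ((w1 - w') + (u1 - u')) := hall _ ((D i).sub_mem hw1 hw') _ ((D j).sub_mem hu1 hu')
    (by rw [e3]; exact one_ne_zero) (by rw [e3, e4]; ring)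
  have h6 : (1 : F) • (w1 + u1) + (-1 : F) • ((w1 - w') + (u1 - u')) = w' + u' := by
    rw [one_smul, neg_one_smul]; abel
  have h3 := InS.line hF h1 h2 (by
    rw [herm_add_left, herm_add_right hF, herm_add_right hF, hperp w1 hw1 _ ((D j).sub_mem hu1 hu'),
      hperp' _ hu1 _ ((D i).sub_mem hw1 hw'), herm_sub_right hF, herm_sub_right hF, hw11, hu11, hw'w1,
      hu'u1]
    intro h0
    apply pow_ne_zero q hα0
    have h7 : (l * α) ^ q + ((1 - l) * α) ^ q = α ^ q := by
      rw [mul_pow, mul_pow, sub_pow_q hF, one_pow]; ring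
    linear_combination -h0 - h7) 1 (-1) (by
      rw [h6, herm_add_left, herm_add_right hF, herm_add_right hF, hperp w' hw' u' hu',
        hperp' u' hu' w' hw']
      linear_combination hs')
  rwa [h6] at h3

/-- a pair with non-isotropic components from one with isotropic components, `t = 2`. -/
theorem exists_noniso (A : Amb q k D π M) (hk2 : 2 ≤ k) {i j : Fin t}
    (hij : i ≠ j) {a b : Fin n → F} (ha : a ∈ D i) (hb : b ∈ D j) (ha0 : a ≠ 0) (hb0 : b ≠ 0)
    (haa : hermForm n F q a a = 0) (hbb : hermForm n F q b b = 0) (hx : InS q M (a + b)) :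
    ∃ w ∈ D i, ∃ u ∈ D j, hermForm n F q w w ≠ 0 ∧ InS q M (w + u) := by
  have hF := A.hF
  have hperp := A.od.orth i j hij
  have hperp' := A.od.orth j i (Ne.symm hij)
  obtain ⟨d, hd, hdne⟩ := H927.exists_norm_one_ne_conj hF
  obtain ⟨u, hu, hau, huu⟩ := exists_vec hF (A.od.nd i) (by rw [A.hk]; omega) ha ha0 (β := 1)
    (ν := 1) (one_pow q) (fun _ h => absurd h one_ne_zero)
  obtain ⟨w, hw, hbw, hww⟩ := exists_vec hF (A.od.nd j) (by rw [A.hk]; omega) hb hb0 (β := 1)
    (ν := 1) (one_pow q) (fun _ h => absurd h one_ne_zero)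
  obtain ⟨g, hg0⟩ := H927.exists_tor hF huu hww (hperp u hu w hw) hd
  have hg : ∀ x, (suGL n F q g : Matrix (Fin n) (Fin n) F) *ᵥ x =
      x + ((d - 1) * hermForm n F q x u) • u + ((d ^ q - 1) * hermForm n F q x w) • w := hg0
  have hgM : suGL n F q g ∈ M := by
    apply A.hHM
    refine mem_H_of A.hk (suGL_mem g) 1 fun l x hx => ?_
    rw [Equiv.Perm.one_apply, hg]
    refine (D l).add_mem ((D l).add_mem hx ?_) ?_
    · by_cases hl : l = i
      · subst hl; exact (D l).smul_mem _ hu
      · rw [A.od.orth l i hl x hx u hu, mul_zero, zero_smul]; exact (D l).zero_mem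
    · by_cases hl : l = j
      · subst hl; exact (D l).smul_mem _ hw
      · rw [A.od.orth l j hl x hx w hw, mul_zero, zero_smul]; exact (D l).zero_mem
  have h1 := InS.map hgM (suGL_mem g).1 hx
  have hau' : hermForm n F q (a + b) u = 1 := by rw [herm_add_left, hau, hperp' b hb u hu, add_zero]
  have hbw' : hermForm n F q (a + b) w = 1 := by rw [herm_add_left, hbw, hperp a ha w hw, zero_add]
  rw [hg, hau', hbw', mul_one, mul_one] at h1
  set a' := a + (d - 1) • u with ha'
  set b' := b + (d ^ q - 1) • w with hb'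
  have ha'D : a' ∈ D i := (D i).add_mem ha ((D i).smul_mem _ hu)
  have hb'D : b' ∈ D j := (D j).add_mem hb ((D j).smul_mem _ hw)
  have e1 : a + b + (d - 1) • u + (d ^ q - 1) • w = a' + b' := by rw [ha', hb']; abel
  rw [e1] at h1
  have hdq : (d ^ q) ^ q = d := pow_q_pow_q hF d
  have hs : hermForm n F q a a' = d ^ q - 1 := by
    rw [ha', herm_add_right hF, haa, herm_smul_right, hau, sub_pow_q hF, one_pow]; ring
  have hr : hermForm n F q b b' = d - 1 := by
    rw [hb', herm_add_right hF, hbb, herm_smul_right, hbw, sub_pow_q hF, one_pow, hdq]; ring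
  have hne1 : d ≠ 1 := by
    rintro rfl
    rw [one_pow] at hdne
    exact hdne rfl
  have hd0 : d ≠ 0 := by
    rintro rfl
    rw [zero_mul] at hd
    exact zero_ne_one hd
  -- `s + r ≠ 0`
  have hsum : (d ^ q - 1) + (d - 1) ≠ 0 := by
    intro h0
    apply hne1
    have h2 : (d - 1) * (d - 1) = 0 := by linear_combination -hd + d * h0
    exact sub_eq_zero.1 (mul_self_eq_zero.1 h2)
  have hh : hermForm n F q (a + b) (a' + b') = (d ^ q - 1) + (d - 1) := by
    have q1 := hperp a ha _ hb'D
    have q2 := hperp' b hb _ ha'D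
    rw [herm_add_left, herm_add_right hF a, herm_add_right hF b, q1, q2, hs, hr]
    ring
  have hh' : hermForm n F q (a' + b') (a + b) = (d ^ q - 1) + (d - 1) := by
    rw [herm_swap hF (a + b), hh, add_pow_q hF, sub_pow_q hF, sub_pow_q hF, hdq, one_pow]; ring
  have hsumq : ((d ^ q - 1) + (d - 1)) ^ q = (d ^ q - 1) + (d - 1) := by
    rw [add_pow_q hF, sub_pow_q hF, sub_pow_q hF, hdq, one_pow]; ring
  obtain ⟨c, hc0, hc⟩ := exists_trace_zero_ne hF
  have hcq : c ^ q = -c := by linear_combination hc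
  set κ := c / ((d ^ q - 1) + (d - 1)) with hκ
  have hκq : κ ^ q = -κ := by rw [hκ, div_pow, hsumq, hcq, neg_div]
  have hκ0 : κ ≠ 0 := div_ne_zero hc0 hsum
  have hiso : hermForm n F q (κ • (a + b) + (1 : F) • (a' + b')) (κ • (a + b) + (1 : F) • (a' + b')) = 0 := by
    have q1 := hx.iso
    have q2 := h1.iso
    generalize a + b = X at hh hh' q1 ⊢
    generalize a' + b' = Y at hh hh' q2 ⊢
    rw [one_smul, herm_add_left, herm_add_right hF, herm_add_right hF, herm_smul_left, herm_smul_left,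
      herm_smul_right, herm_smul_right, hh, hh', q1, q2, hκq]
    ring
  have h2 := InS.line hF hx h1 (by rw [hh]; exact hsum) κ 1 hiso
  have e2 : κ • (a + b) + (1 : F) • (a' + b') = (κ • a + a') + (κ • b + b') := by
    rw [one_smul, smul_add]; abel
  rw [e2] at h2
  refine ⟨κ • a + a', (D i).add_mem ((D i).smul_mem _ ha) ha'D, κ • b + b',
    (D j).add_mem ((D j).smul_mem _ hb) hb'D, ?_, h2⟩
  have hs' : hermForm n F q a' a = d - 1 := by rw [herm_swap hF a, hs, sub_pow_q hF, hdq, one_pow]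
  have ha'a' : hermForm n F q a' a' = 0 := by
    rw [ha', herm_add_left, herm_add_right hF, herm_add_right hF, haa, herm_smul_left, herm_smul_left,
      herm_smul_right, herm_smul_right, hau, huu, herm_swap hF a u, hau, sub_pow_q hF, one_pow]
    linear_combination hd
  clear_value a'
  rw [herm_add_left, herm_add_right hF, herm_add_right hF, herm_smul_left, herm_smul_left,
    herm_smul_right, herm_smul_right, haa, hs, hs', ha'a', hκq]
  intro h0
  apply hdne
  have h3 : κ * (d ^ q - d) = 0 := by linear_combination h0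
  exact sub_eq_zero.1 ((mul_eq_zero.1 h3).resolve_left hκ0)

/-- **Two orthogonal non-degenerate spaces of dimension `k ≥ 2`, `q ≥ 3`.** -/
theorem dec_maximal {F : Type*} [Field F] [Fintype F] (n q : ℕ) (hF : Fintype.card F = q ^ 2) (hn : 3 ≤ n)
    (h32 : ¬ (n = 3 ∧ q = 2)) (k : ℕ) (D : Fin 2 → Submodule F (Fin n → F))
    (hD : Cfsg.Geo.IsNondegenerateMDecomposition (Cfsg.hermForm n F q) k D)
    (hk2 : 2 ≤ k) (hq : 3 ≤ q) :
    Cfsg.Geo.IsMaximalIn (Cfsg.GU n F q ⊓ Cfsg.Geo.specialLinear (Fin n) F)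
      (Cfsg.Geo.decompositionStabilizer D ⊓ (Cfsg.GU n F q ⊓ Cfsg.Geo.specialLinear (Fin n) F)) := by
  obtain ⟨π, hOD⟩ := exists_OD hF hD
  have hk := hD.decomp.finrank_eq
  have ht := hD.decomp.two_le
  apply isMaximalIn_of inf_le_right
  · intro hle
    exact H918.SUg_not_le_decompositionStabilizer hF hn h32 hD.decomp (hle.trans inf_le_left)
  · intro M hHM hMG hM
    have A : Amb q k D π M := ⟨hF, hOD, hk, hHM, hMG⟩
    obtain ⟨x, hx, i, j, hij, hxi, hxj⟩ := A.exists_two hk2 hM
    have hxe : x = π i x + π j x := A.od.eq_pair hij fun l hl hl' => by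
      exfalso
      fin_cases i <;> fin_cases j <;> fin_cases l <;> simp_all
    have hP : HP q D M i j := by
      rw [hxe] at hx
      have hperp := A.od.orth i j hij _ (A.od.mem i x) _ (A.od.mem j x)
      have hi := hx.iso
      rw [herm_add_left, herm_add_right hF, herm_add_right hF, hperp, herm_eq_zero_swap hF hperp] at hi
      by_cases haa : hermForm n F q (π i x) (π i x) = 0
      · obtain ⟨w, hw, u, hu, hww, h⟩ := exists_noniso A hk2 hij (A.od.mem i x) (A.od.mem j x) hxi hxj haa
          (by linear_combination hi - haa) hx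
        exact hp_of_noniso A hk2 hq hij hw hu hww h
      · exact hp_of_noniso A hk2 hq hij (A.od.mem i x) (A.od.mem j x) haa hx
    exact su_le hF hn h32 fun y hy =>
      A.inS_all hk2 ht (Or.inl hq) (A.hp_all (by omega) hij hP) _ y hy le_rfl

end Cfsg.Agent.H900.SU4
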