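import Cfsg.Agent.H900.SU4.OrthIrr
import Cfsg.Agent.H900.SU4.Base
import Cfsg.Agent.H918.UBase

/-!
# The real Siegel elements as matrices
-/

set_option autoImplicit false
open Cfsg
open scoped Matrix MatrixGroups

namespace Cfsg.Agent.H900.SU4

open Cfsg.Agent.LieClassical.HermBasic Cfsg.Agent.LieClassical.HermSiegel
open Cfsg.Agent.ClassicalGeometry.HermOrtho Cfsg.Agent.H927

variable {F : Type*} [Field F] [Fintype F] {n q : ℕ}
variable {τ : (Fin n → F) → (Fin n → F)}

omit [Fintype F] in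
theorem RP.add {u x y : Fin n → F} (hx : RP q τ u x) (hy : RP q τ u y) (hτ : IsReal q τ) : RP q τ u (x + y) :=
  ⟨hx.hu, by rw [hτ.add, hx.hx, hy.hx], hx.iso, by rw [herm_add_left, hx.orth, hy.orth, add_zero]⟩

omit [Fintype F] in
theorem RP.zero {u : Fin n → F} (hτ : IsReal q τ) (hu : τ u = u) (huu : hermForm n F q u u = 0) : RP q τ u 0 :=
  ⟨hu, hτ.zero, huu, herm_zero_left u⟩

theorem RP.smul {u x : Fin n → F} (hx : RP q τ u x) (hτ : IsReal q τ) {c : F} (hc : c ^ q = c) : RP q τ u (c • x) :=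
  ⟨hx.hu, hτ.smul_real hc hx.hx, hx.iso, by rw [herm_smul_left, hx.orth, mul_zero]⟩

variable (hF : Fintype.card F = q ^ 2) (hτ : IsReal q τ) (h2 : (2 : F) ≠ 0)

/-- the real Siegel element -/
noncomputable def sg {u x : Fin n → F} (h : RP q τ u x) : SU n F q :=
  siegel hF u x _ (isSiegel_real hτ hF h2 h.hx h.iso h.orth)

theorem act_sg {u x : Fin n → F} (h : RP q τ u x) (y : Fin n → F) : act (sg hF hτ h2 h) y = sf q u x y :=
  act_siegel hF _ y

theorem sg_congr {u x y : Fin n → F} (h : RP q τ u x) (h' : RP q τ u y) (hxy : x = y) :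
    sg hF hτ h2 h = sg hF hτ h2 h' := by
  subst hxy; rfl

theorem sg_mul {u x y : Fin n → F} (h : RP q τ u x) (h' : RP q τ u y) :
    sg hF hτ h2 h * sg hF hτ h2 h' = sg hF hτ h2 (h.add h' hτ) := by
  unfold sg
  rw [siegel_mul]
  apply siegel_congr hF _ _ rfl rfl
  rw [herm_add_left, herm_add_right hF, herm_add_right hF, hτ.herm_symm hF h.hx h'.hx]
  field_simp
  ring

theorem sg_zero {u : Fin n → F} (h : RP q τ u 0) : sg hF hτ h2 h = 1 := by
  apply ext_act
  intro v
  rw [act_sg, act_one, sf, herm_zero_left, herm_zero_right hF]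
  simp

theorem sg_pow {u x : Fin n → F} (h : RP q τ u x) (k : ℕ) (h' : RP q τ u ((k : F) • x)) :
    sg hF hτ h2 h ^ k = sg hF hτ h2 h' := by
  induction k with
  | zero =>
    rw [pow_zero]
    have h0 : RP q τ u 0 := RP.zero hτ h.hu h.iso
    rw [sg_congr hF hτ h2 h' h0 (by simp), sg_zero]
  | succ k ih =>
    have hk : RP q τ u ((k : F) • x) := by
      have := h'.add (h.neg hF hτ) hτ
      have e : ((k + 1 : ℕ) : F) • x + -x = (k : F) • x := by
        push_cast
        rw [add_smul, one_smul]; abel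
      rwa [e] at this
    rw [pow_succ, ih hk, sg_mul]
    apply sg_congr
    push_cast
    rw [add_smul, one_smul]

/-- the matrix of the real Siegel element -/
noncomputable def sgm {u x : Fin n → F} (h : RP q τ u x) : GL (Fin n) F := H918.suHom n F q (sg hF hτ h2 h)

theorem sgm_mulVec {u x : Fin n → F} (h : RP q τ u x) (y : Fin n → F) :
    ((sgm hF hτ h2 h : GL (Fin n) F) : Matrix (Fin n) (Fin n) F) *ᵥ y = sf q u x y :=
  act_sg hF hτ h2 h y

theorem sgm_mul {u x y : Fin n → F} (h : RP q τ u x) (h' : RP q τ u y) :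
    sgm hF hτ h2 h * sgm hF hτ h2 h' = sgm hF hτ h2 (h.add h' hτ) := by
  unfold sgm
  rw [← map_mul, sg_mul]

theorem sgm_pow_char {p : ℕ} (hp : (p : F) = 0) {u x : Fin n → F} (h : RP q τ u x) : sgm hF hτ h2 h ^ p = 1 := by
  have h0 : RP q τ u ((p : F) • x) := by
    rw [hp, zero_smul]
    exact RP.zero hτ h.hu h.iso
  unfold sgm
  rw [← map_pow, sg_pow hF hτ h2 h p h0, sg_congr hF hτ h2 h0 (RP.zero hτ h.hu h.iso) (by rw [hp, zero_smul]), sg_zero,
    map_one]

theorem sgm_mem_SU {u x : Fin n → F} (h : RP q τ u x) : sgm hF hτ h2 h ∈ GU n F q ⊓ Geo.specialLinear (Fin n) F :=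
  H918.suHom_mem _

/-- a square root in the group -/
theorem sgm_eq_sq {u x : Fin n → F} (h : RP q τ u x) :
    ∃ h' : RP q τ u ((2 : F)⁻¹ • x), sgm hF hτ h2 h = sgm hF hτ h2 h' ^ 2 := by
  have hr : ((2 : F)⁻¹) ^ q = (2 : F)⁻¹ := by rw [inv_pow, two_pow_q hF]
  refine ⟨h.smul hτ hr, ?_⟩
  rw [pow_two, sgm_mul]
  unfold sgm
  congr 1
  apply sg_congr
  rw [← add_smul]
  have : (2 : F)⁻¹ + (2 : F)⁻¹ = 1 := by field_simp; norm_num
  rw [this, one_smul]

include hF in
/-- it fixes `u` -/
theorem sf_self {u x : Fin n → F} (h : RP q τ u x) : sf q u x u = u := by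
  rw [sf, h.iso, herm_eq_zero_swap hF h.orth]
  simp

include hF in
/-- the eigenvalues of a real Siegel element are 1 -/
theorem sf_eigen {u x y : Fin n → F} (h : RP q τ u x) {c : F} (hy : y ≠ 0)
    (hc : sf q u x y = c • y) : c = 1 := by
  have hux : hermForm n F q u x = 0 := herm_eq_zero_swap hF h.orth
  have h1 := congrArg (fun v => hermForm n F q v u) hc
  simp only [sf, herm_add_left, herm_smul_left, h.iso, h.orth, mul_zero, add_zero] at h1
  have h3 := congrArg (fun v => hermForm n F q v x) hc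
  simp only [sf, herm_add_left, herm_smul_left, hux, mul_zero, add_zero] at h3
  by_cases h4 : hermForm n F q y u = 0
  · rw [h4, zero_mul, add_zero] at h3
    by_cases h5 : hermForm n F q y x = 0
    · rw [sf, h4, h5] at hc
      simp only [zero_smul, mul_zero, sub_self, add_zero] at hc
      have h6 : (c - 1) • y = 0 := by rw [sub_smul, one_smul, ← hc, sub_self]
      rcases smul_eq_zero.1 h6 with h | h
      · exact sub_eq_zero.1 h
      · exact absurd h hy
    · have h6 : (c - 1) * hermForm n F q y x = 0 := by linear_combination -h3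
      rcases mul_eq_zero.1 h6 with h | h
      · exact sub_eq_zero.1 h
      · exact absurd h h5
  · have h6 : (c - 1) * hermForm n F q y u = 0 := by linear_combination -h1
    rcases mul_eq_zero.1 h6 with h | h
    · exact sub_eq_zero.1 h
    · exact absurd h h4

/-- `sgm` is a scalar only if the parameter is orthogonal to all vectors orthogonal to `u`-/
theorem orth_of_sgm_scalar {u x : Fin n → F} (h : RP q τ u x) (hu0 : u ≠ 0)
    (hs : sgm hF hτ h2 h ∈ Geo.scalars (Fin n) F) : ∀ t : Fin n → F, hermForm n F q t u = 0 → hermForm n F q t x = 0 := by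
  obtain ⟨c, hc⟩ := (Geo.mem_scalars_iff _).1 hs
  have h1 : ∀ y, sf q u x y = (c : F) • y := by
    intro y
    rw [← sgm_mulVec hF hτ h2 h, hc, Matrix.smul_mulVec, Matrix.one_mulVec]
  have hc1 : (c : F) = 1 := sf_eigen hF h hu0 (h1 u)
  intro t ht
  have h3 := h1 t
  rw [hc1, one_smul, sf, ht] at h3
  simp only [zero_smul, mul_zero, zero_sub, add_zero] at h3
  have h4 : (-hermForm n F q t x) • u = 0 := by
    have := sub_eq_zero.2 h3
    rwa [add_sub_cancel_left] at this
  rcases smul_eq_zero.1 h4 with h | h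
  · exact neg_eq_zero.1 h
  · exact absurd h hu0

end Cfsg.Agent.H900.SU4
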