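import Cfsg.Agent.H900.SU4.OrthElt
import Cfsg.Agent.H900.SU4.Cliff

/-!
# `SU_4(q)`: the subgroups of orthogonal type are maximal, `q ≥ 5` odd
-/

set_option autoImplicit false
open Cfsg
open scoped Matrix MatrixGroups

namespace Cfsg.Agent.H900.SU4

open Cfsg.Agent.LieClassical.HermBasic Cfsg.Agent.LieClassical.HermSiegel
open Cfsg.Agent.ClassicalGeometry.HermOrtho Cfsg.Agent.H927

section tau

variable {F : Type*} [Field F] [Fintype F] {n q : ℕ} (hF : Fintype.card F = q ^ 2)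

include hF in
theorem frob_mulVec (A : Matrix (Fin n) (Fin n) F) (v : Fin n → F) :
    frob q (A *ᵥ v) = (A.map (· ^ q)) *ᵥ frob q v := by
  funext i
  simp only [frob_apply, Matrix.mulVec, dotProduct, Matrix.map_apply]
  rw [sum_pow_q hF]
  exact Finset.sum_congr rfl fun j _ => mul_pow _ _ _

include hF in
theorem tauP_add (P : GL (Fin n) F) (x y : Fin n → F) : tauP q P (x + y) = tauP q P x + tauP q P y := by
  unfold tauP
  rw [Matrix.mulVec_add, frob_add hF, Matrix.mulVec_add]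

omit [Fintype F] in
theorem tauP_smul (P : GL (Fin n) F) (c : F) (x : Fin n → F) : tauP q P (c • x) = c ^ q • tauP q P x := by
  unfold tauP
  rw [Matrix.mulVec_smul, frob_smul, Matrix.mulVec_smul]

include hF in
theorem tauP_tauP (P : GL (Fin n) F) (x : Fin n → F) : tauP q P (tauP q P x) = x := by
  unfold tauP
  rw [inv_mulVec_mulVec, frob_frob hF, mulVec_inv_mulVec]

include hF in
/-- a matrix rational for `P` commutes with `tauP q P`. -/
theorem tauP_comm {F₁ : Subfield F} (h1 : Fintype.card F = Nat.card F₁ ^ 2) {P g : GL (Fin n) F} {l : F}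
    (hg : ∀ i j, l * ((P⁻¹ * g * P : GL (Fin n) F) : Matrix (Fin n) (Fin n) F) i j ∈ F₁) (y : Fin n → F) :
    tauP q P (l • ((g : Matrix (Fin n) (Fin n) F) *ᵥ y)) = l • ((g : Matrix (Fin n) (Fin n) F) *ᵥ tauP q P y) := by
  set A : Matrix (Fin n) (Fin n) F := l • ((P⁻¹ * g * P : GL (Fin n) F) : Matrix (Fin n) (Fin n) F) with hA
  have hAq : A.map (· ^ q) = A := by
    ext i j
    have := (mem_iff_pow hF h1 _).1 (hg i j)
    simpa [hA] using this
  have e1 : ∀ z : Fin n → F, l • ((g : Matrix (Fin n) (Fin n) F) *ᵥ z) =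
      (P : Matrix (Fin n) (Fin n) F) *ᵥ (A *ᵥ (((P⁻¹ : GL (Fin n) F) : Matrix (Fin n) (Fin n) F) *ᵥ z)) := by
    intro z
    rw [hA, Matrix.smul_mulVec, Matrix.mulVec_smul, Matrix.mulVec_mulVec, Matrix.mulVec_mulVec, ← Units.val_mul,
      ← Units.val_mul]
    congr 3
    group
  rw [e1, e1]
  unfold tauP
  rw [inv_mulVec_mulVec, frob_mulVec hF, hAq, inv_mulVec_mulVec]

end tau

section rational

variable {ι : Type} [Fintype ι] [DecidableEq ι] {F : Type*} [Field F] [Finite F] {F₁ : Subfield F} {P : GL ι F}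

theorem mem_of_pow_mem {p : ℕ} [hp : Fact p.Prime] [CharP F p] {c : F} (h : c ^ p ∈ F₁) : c ∈ F₁ := by
  have hch : CharP F₁ p := inferInstance
  obtain ⟨d, hd⟩ := Finite.surjective_of_injective (frobenius_inj F₁ p) ⟨c ^ p, h⟩
  have h1 : ((d : F)) ^ p = c ^ p := by
    have := congrArg Subtype.val hd
    exact this
  have h2 : (d : F) = c := frobenius_inj F p h1
  rw [← h2]
  exact d.2

/-- Elements of order `p` in a subfield group are rational. -/
theorem rational_of_pow {p : ℕ} [hp : Fact p.Prime] [CharP F p] {g : GL ι F} (hg : g ∈ Geo.subfieldSubgroup F₁ P)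
    (hgp : g ^ p = 1) (i j : ι) : ((P⁻¹ * g * P : GL ι F) : Matrix ι ι F) i j ∈ F₁ := by
  obtain ⟨c, hc0, hc⟩ := H914.mem_subfieldSubgroup_iff.1 hg
  set A := P⁻¹ * g * P with hA
  have hAp : A ^ p = 1 := by
    have : A = P⁻¹ * g * (P⁻¹)⁻¹ := by rw [hA, inv_inv]
    rw [this, conj_pow, hgp, mul_one, mul_inv_cancel]
  let B : Matrix ι ι F₁ := fun i j => ⟨c * (A : Matrix ι ι F) i j, hc i j⟩
  have hB : B.map (F₁.subtype) = c • (A : Matrix ι ι F) := by
    ext i j
    rfl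
  have h1 : (B ^ p).map (F₁.subtype) = (c ^ p) • (1 : Matrix ι ι F) := by
    have : (B ^ p).map (F₁.subtype) = (B.map (F₁.subtype)) ^ p := by
      have := map_pow (RingHom.mapMatrix (m := ι) F₁.subtype) B p
      exact this
    rw [this, hB, smul_pow, ← Units.val_pow_eq_pow_val, hAp, Units.val_one]
  have h2 : c ^ p ∈ F₁ := by
    have h3 := congrFun (congrFun h1 i) i
    simp only [Matrix.map_apply, Matrix.smul_apply, Matrix.one_apply_eq, smul_eq_mul, mul_one] at h3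
    rw [← h3]
    exact ((B ^ p) i i).2
  have h3 := mem_of_pow_mem (p := p) h2
  have h4 := F₁.mul_mem (F₁.inv_mem h3) (hc i j)
  rwa [inv_mul_cancel_left₀ hc0] at h4

end rational

section elt

variable {F : Type*} [Field F] [Fintype F] {n q : ℕ}
variable {τ : (Fin n → F) → (Fin n → F)}
variable (hF : Fintype.card F = q ^ 2) (hτ : IsReal q τ) (h2 : (2 : F) ≠ 0)

include hF hτ h2 in
theorem exists_two_perp (hn : 4 ≤ n) {u : Fin n → F} (hu : τ u = u) (hu0 : u ≠ 0)
    (huu : hermForm n F q u u = 0) : ∃ t₁ t₂, RP q τ u t₁ ∧ RP q τ u t₂ ∧ hermForm n F q t₁ t₁ ≠ 0 ∧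
      hermForm n F q t₂ t₂ ≠ 0 ∧ hermForm n F q t₂ t₁ = 0 := by
  have hT : Nd q τ (⊤ : Submodule F (Fin n → F)) := Nd.top hF
  obtain ⟨u', -, hu', huu', huu1⟩ := hT.exists_partner hF hτ h2 Submodule.mem_top hu hu0 huu
  have hW := hT.cutPair hF (w := u) (w' := u') Submodule.mem_top Submodule.mem_top huu huu'
    (by rw [huu1]; exact one_ne_zero) (fun x => pair_stable hF hτ h2 hu hu' x)
  have hd1 := finrank_inf_perp hF (⊤ : Submodule F (Fin n → F)) u
  have hd2 := finrank_inf_perp hF ((⊤ : Submodule F (Fin n → F)) ⊓ perp hF u) u'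
  rw [finrank_top, Module.finrank_fin_fun] at hd1
  obtain ⟨t, ht, htr, htt⟩ := hW.exists_aniso hF hτ h2 (Nd.ne_bot_of_finrank (by omega))
  have hW2 := hW.cut hF hτ ht htr htt
  have hd3 := finrank_inf_perp hF ((⊤ : Submodule F (Fin n → F)) ⊓ perp hF u ⊓ perp hF u') t
  obtain ⟨s, hs, hsr, hss⟩ := hW2.exists_aniso hF hτ h2 (Nd.ne_bot_of_finrank (by omega))
  exact ⟨t, s, ⟨hu, htr, huu, ht.1.2⟩, ⟨hu, hsr, huu, hs.1.1.2⟩, htt, hss, hs.2⟩

theorem RP.lin {u t₁ t₂ : Fin n → F} (h1 : RP q τ u t₁) (h2 : RP q τ u t₂) (hτ : IsReal q τ) {a b : F}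
    (ha : a ^ q = a) (hb : b ^ q = b) : RP q τ u (a • t₁ + b • t₂) := (h1.smul hτ ha).add (h2.smul hτ hb) hτ

/-- the homomorphism `(a, b) ↦ s(u, a t₁ + b t₂)`. -/
noncomputable def sgHom {F₀ : Subfield F} (hcard : Fintype.card F = Nat.card F₀ ^ 2) {u t₁ t₂ : Fin n → F}
    (h₁ : RP q τ u t₁) (h₂ : RP q τ u t₂) : Multiplicative (F₀ × F₀) →* GL (Fin n) F :=
  MonoidHom.mk' (fun x => sgm hF hτ h2 (h₁.lin h₂ hτ ((mem_iff_pow hF hcard _).1 x.toAdd.1.2)
    ((mem_iff_pow hF hcard _).1 x.toAdd.2.2))) (by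
    intro x y
    rw [sgm_mul]
    unfold sgm
    congr 1
    apply sg_congr
    rw [toAdd_mul, Prod.fst_add, Prod.snd_add, Subfield.coe_add, Subfield.coe_add, add_smul, add_smul]
    abel)

theorem sgHom_apply {F₀ : Subfield F} (hcard : Fintype.card F = Nat.card F₀ ^ 2) {u t₁ t₂ : Fin n → F}
    (h₁ : RP q τ u t₁) (h₂ : RP q τ u t₂) (x : Multiplicative (F₀ × F₀)) :
    ∃ h : RP q τ u ((x.toAdd.1 : F) • t₁ + (x.toAdd.2 : F) • t₂), sgHom hF hτ h2 hcard h₁ h₂ x = sgm hF hτ h2 h :=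
  ⟨_, rfl⟩

include hF in
theorem sgHom_scalar {F₀ : Subfield F} (hcard : Fintype.card F = Nat.card F₀ ^ 2) {u t₁ t₂ : Fin n → F}
    (h₁ : RP q τ u t₁) (h₂ : RP q τ u t₂) (hu0 : u ≠ 0) (h11 : hermForm n F q t₁ t₁ ≠ 0)
    (h22 : hermForm n F q t₂ t₂ ≠ 0) (h21 : hermForm n F q t₂ t₁ = 0) (x : Multiplicative (F₀ × F₀))
    (hx : sgHom hF hτ h2 hcard h₁ h₂ x ∈ Geo.scalars (Fin n) F) : x = 1 := by
  obtain ⟨h, hx'⟩ := sgHom_apply hF hτ h2 hcard h₁ h₂ x
  rw [hx'] at hx
  have h3 := orth_of_sgm_scalar hF hτ h2 h hu0 hx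
  have h4 := h3 t₁ h₁.orth
  have h5 := h3 t₂ h₂.orth
  have h12 : hermForm n F q t₁ t₂ = 0 := herm_eq_zero_swap hF h21
  rw [herm_add_right hF, herm_smul_right, herm_smul_right, h12, mul_zero, add_zero] at h4
  rw [herm_add_right hF, herm_smul_right, herm_smul_right, h21, mul_zero, zero_add] at h5
  have h6 : (x.toAdd.1 : F) = 0 := (pow_q_eq_zero hF).1 ((mul_eq_zero.1 h4).resolve_right h11)
  have h7 : (x.toAdd.2 : F) = 0 := (pow_q_eq_zero hF).1 ((mul_eq_zero.1 h5).resolve_right h22)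
  apply Multiplicative.toAdd.injective
  exact Prod.ext (Subtype.ext h6) (Subtype.ext h7)

/-- containing all real Siegel elements -/
def HasReal (M : Subgroup (GL (Fin n) F)) : Prop := ∀ {u x : Fin n → F} (h : RP q τ u x), sgm hF hτ h2 h ∈ M

include hF hτ h2 in
theorem HasReal.irr {M : Subgroup (GL (Fin n) F)} (hM : HasReal hF hτ h2 M) (hn : 4 ≤ n)
    {W : Submodule F (Fin n → F)} (hW : M ≤ Geo.subspaceStabilizer W) : W = ⊥ ∨ W = ⊤ := by
  by_cases h0 : W = ⊥
  · exact Or.inl h0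
  right
  apply SU4.irr hF hτ h2 hn _ h0
  intro u x h w hw
  have h1 := (H918.mem_subspaceStabilizer.1 (hW (hM h)) w).1 hw
  rwa [sgm_mulVec] at h1

include hF hτ h2 in
/-- decompositions into two subspaces -/
theorem HasReal.two {M : Subgroup (GL (Fin n) F)} (hM : HasReal hF hτ h2 M) (hn : 4 ≤ n) {m : ℕ} (hm : m < n)
    {D : Fin 2 → Submodule F (Fin n → F)} (hD : Geo.IsMDecomposition m D) (hMD : M ≤ Geo.decompositionStabilizer D) :
    False := by
  obtain ⟨f, hf⟩ := exists_permHom (H918.decomp_injective hD)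
  have h1 : D 0 ≠ ⊥ := by
    intro h
    have := hD.finrank_eq 0
    rw [h, finrank_bot] at this
    have := hD.pos
    omega
  have h3 : D 0 = ⊤ := by
    apply SU4.irr hF hτ h2 hn _ h1
    intro u x h w hw
    obtain ⟨h', hh⟩ := sgm_eq_sq hF hτ h2 h
    have h4 := hf ⟨_, hMD (hM h)⟩ 0
    have h5 : (⟨_, hMD (hM h)⟩ : Geo.decompositionStabilizer D) = ⟨_, hMD (hM h')⟩ ^ 2 := Subtype.ext hh
    have h6 : ∀ σ : Equiv.Perm (Fin 2), σ ^ 2 = 1 := by decide
    rw [h5, map_pow, h6, Equiv.Perm.one_apply, ← h5] at h4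
    rw [← sgm_mulVec hF hτ h2 h, ← h4]
    exact ⟨w, hw, by rw [Matrix.toLin'_apply]⟩
  have := hD.finrank_eq 0
  rw [h3, finrank_top, Module.finrank_fin_fun] at this
  omega

include hF hτ h2 in
/-- frames in dimension four -/
theorem HasReal.frame {M : Subgroup (GL (Fin n) F)} (hM : HasReal hF hτ h2 M) (hn : 4 ≤ n) (h5 : 5 ≤ q)
    {F₀ : Subfield F} (hcard : Fintype.card F = Nat.card F₀ ^ 2)
    {D : Fin 4 → Submodule F (Fin n → F)} (hD : Geo.IsMDecomposition 1 D) (hMD : M ≤ Geo.decompositionStabilizer D) :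
    False := by
  obtain ⟨f, hf⟩ := exists_permHom (H918.decomp_injective hD)
  obtain ⟨x₀, hx₀⟩ : ∃ x : Fin n → F, x ≠ 0 := ⟨Pi.single ⟨0, by omega⟩ 1, fun h => by
    have := congrFun h ⟨0, by omega⟩
    rw [Pi.single_eq_same] at this
    exact one_ne_zero this⟩
  obtain ⟨u, hu, huu, hxu⟩ := exists_iso_all hF hτ h2 hn hx₀
  have hu0 : u ≠ 0 := by
    rintro rfl
    exact hxu (herm_zero_right hF _)
  obtain ⟨t₁, t₂, h₁, h₂, h11, h22, h21⟩ := exists_two_perp hF hτ h2 hn hu hu0 huu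
  let k : Multiplicative (F₀ × F₀) →* Geo.decompositionStabilizer D :=
    (sgHom hF hτ h2 hcard h₁ h₂).codRestrict _ (fun x => by
      obtain ⟨h, hx⟩ := sgHom_apply hF hτ h2 hcard h₁ h₂ x
      rw [hx]
      exact hMD (hM h))
  by_cases hinj : Function.Injective (f.comp k)
  · have h3 := Subgroup.card_dvd_of_injective _ hinj
    have h4 : Nat.card (Multiplicative (F₀ × F₀)) = q ^ 2 := by
      rw [Nat.card_congr Multiplicative.toAdd, Nat.card_prod, card_subfield hF hcard, pow_two]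
    have h6 : Nat.card (Equiv.Perm (Fin 4)) = 24 := by
      rw [Nat.card_perm, Nat.card_eq_fintype_card, Fintype.card_fin]; rfl
    rw [h4, h6] at h3
    have h7 := Nat.le_of_dvd (by norm_num) h3
    nlinarith
  · rw [injective_iff_map_eq_one] at hinj
    push Not at hinj
    obtain ⟨x, hx, hx1⟩ := hinj
    obtain ⟨h, hx'⟩ := sgHom_apply hF hτ h2 hcard h₁ h₂ x
    apply hx1
    apply sgHom_scalar hF hτ h2 hcard h₁ h₂ hu0 h11 h22 h21
    rw [hx']
    -- `sgm h` fixes all vectors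
    let K : Submodule F (Fin n → F) := LinearMap.ker (Matrix.toLin' ((sgm hF hτ h2 h : GL (Fin n) F) :
      Matrix (Fin n) (Fin n) F) - LinearMap.id)
    have hK : ∀ v, v ∈ K ↔ sf q u ((x.toAdd.1 : F) • t₁ + (x.toAdd.2 : F) • t₂) v = v := by
      intro v
      rw [← sgm_mulVec hF hτ h2 h, LinearMap.mem_ker, LinearMap.sub_apply, Matrix.toLin'_apply, LinearMap.id_apply,
        sub_eq_zero]
    have hKtop : K = ⊤ := by
      rw [eq_top_iff, ← hD.iSup_eq_top]
      apply iSup_le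
      intro i w hw
      by_cases hw0 : w = 0
      · rw [hw0]; exact K.zero_mem
      have h3 := hf (k x) i
      have h4 : f (k x) = 1 := hx
      rw [h4, Equiv.Perm.one_apply] at h3
      have h6 : sf q u ((x.toAdd.1 : F) • t₁ + (x.toAdd.2 : F) • t₂) w ∈ D i := by
        rw [← sgm_mulVec hF hτ h2 h, ← h3]
        refine ⟨w, hw, ?_⟩
        rw [Matrix.toLin'_apply]
        change ((sgHom hF hτ h2 hcard h₁ h₂ x : GL (Fin n) F) : Matrix (Fin n) (Fin n) F) *ᵥ w = _
        rw [hx']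
      obtain ⟨c, hc⟩ := exists_smul_eq_of_finrank_eq_one (hD.finrank_eq i) (x := ⟨w, hw⟩)
        (fun h0 => hw0 (congrArg Subtype.val h0)) ⟨_, h6⟩
      have h7 : sf q u ((x.toAdd.1 : F) • t₁ + (x.toAdd.2 : F) • t₂) w = c • w := (congrArg Subtype.val hc).symm
      rw [hK, h7, sf_eigen hF h hw0 h7, one_smul]
    have h8 : sgm hF hτ h2 h = 1 := by
      apply Units.ext
      rw [← Matrix.mulVec_injective.eq_iff]
      funext v
      rw [sgm_mulVec, Units.val_one, Matrix.one_mulVec]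
      exact (hK v).1 (by rw [hKtop]; trivial)
    rw [h8]
    exact one_mem _

include hF hτ h2 in
/-- a real isotropic vector with an anisotropic real vector orthogonal to it. -/
theorem exists_good (hn : 4 ≤ n) : ∃ u t : Fin n → F, u ≠ 0 ∧ RP q τ u t ∧ hermForm n F q t t ≠ 0 := by
  obtain ⟨x₀, hx₀⟩ : ∃ x : Fin n → F, x ≠ 0 := ⟨Pi.single ⟨0, by omega⟩ 1, fun h => by
    have := congrFun h ⟨0, by omega⟩
    rw [Pi.single_eq_same] at this
    exact one_ne_zero this⟩
  obtain ⟨u, hu, huu, hxu⟩ := exists_iso_all hF hτ h2 hn hx₀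
  have hu0 : u ≠ 0 := by
    rintro rfl
    exact hxu (herm_zero_right hF _)
  obtain ⟨t, ht, htt⟩ := exists_aniso_perp_one hF hτ h2 hn hu hu0 huu
  exact ⟨u, t, hu0, ht, htt⟩

include hF hτ h2 in
/-- subfields of odd index -/
theorem HasReal.odd_sub {M : Subgroup (GL (Fin n) F)} (hM : HasReal hF hτ h2 M) (hn : 4 ≤ n)
    {F₁ : Subfield F} {r : ℕ} {P : GL (Fin n) F} (hr : 3 ≤ r) (hcard : Fintype.card F = Nat.card F₁ ^ r)
    (hMP : M ≤ Geo.subfieldSubgroup F₁ P) : False := by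
  obtain ⟨p, k, hp, hchar, hk, -⟩ := exists_prime_pow hF
  have hpF : Fact p.Prime := ⟨hp⟩
  have hp0 : (p : F) = 0 := CharP.cast_eq_zero F p
  obtain ⟨u, t, hu0, ht, htt⟩ := exists_good hF hτ h2 hn
  have hrat : ∀ {x : Fin n → F} (h : RP q τ u x) (i j : Fin n),
      ((P⁻¹ * sgm hF hτ h2 h * P : GL (Fin n) F) : Matrix (Fin n) (Fin n) F) i j ∈ F₁ := fun h i j =>
    rational_of_pow (p := p) (hMP (hM h)) (sgm_pow_char hF hτ h2 hp0 h) i j
  -- the matrix of the sum
  let N : Matrix (Fin n) (Fin n) F := ((sgm hF hτ h2 ht : GL (Fin n) F) : Matrix (Fin n) (Fin n) F) +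
    ((sgm hF hτ h2 (ht.neg hF hτ) : GL (Fin n) F) : Matrix (Fin n) (Fin n) F) - (2 : F) • 1
  have hN : ∀ y, N *ᵥ y = (-(hermForm n F q t t) * hermForm n F q y u) • u := by
    intro y
    rw [Matrix.sub_mulVec, Matrix.add_mulVec, sgm_mulVec, sgm_mulVec, sf_add_sf_neg hF _ h2, Matrix.smul_mulVec,
      Matrix.one_mulVec, add_sub_cancel_left]
  have hNa : ∀ (a : F) (ha : a ^ q = a), ((sgm hF hτ h2 (ht.smul hτ ha) : GL (Fin n) F) : Matrix (Fin n) (Fin n) F) +
      ((sgm hF hτ h2 ((ht.smul hτ ha).neg hF hτ) : GL (Fin n) F) : Matrix (Fin n) (Fin n) F) =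
      (2 : F) • 1 + a ^ 2 • N := by
    intro a ha
    rw [← Matrix.mulVec_injective.eq_iff]
    funext y
    rw [Matrix.add_mulVec, sgm_mulVec, sgm_mulVec, sf_add_sf_neg hF _ h2, Matrix.add_mulVec, Matrix.smul_mulVec,
      Matrix.smul_mulVec, Matrix.one_mulVec, hN, herm_smul_left, herm_smul_right, ha, smul_smul]
    congr 2
    ring
  set Q : Matrix (Fin n) (Fin n) F := ((P⁻¹ : GL (Fin n) F) : Matrix (Fin n) (Fin n) F) with hQ
  have hQP : Q * (P : Matrix (Fin n) (Fin n) F) = 1 := by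
    rw [hQ, ← Units.val_mul, inv_mul_cancel, Units.val_one]
  have hPQ : (P : Matrix (Fin n) (Fin n) F) * Q = 1 := by
    rw [hQ, ← Units.val_mul, mul_inv_cancel, Units.val_one]
  have hN0 : Q * N * (P : Matrix (Fin n) (Fin n) F) ≠ 0 := by
    intro h0
    have h3 : N = 0 := by
      have : (P : Matrix (Fin n) (Fin n) F) * (Q * N * (P : Matrix (Fin n) (Fin n) F)) * Q = N := by
        rw [← Matrix.mul_assoc, ← Matrix.mul_assoc, hPQ, Matrix.one_mul, Matrix.mul_assoc, hPQ, Matrix.mul_one]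
      rw [← this, h0, Matrix.mul_zero, Matrix.zero_mul]
    obtain ⟨y, hy⟩ := exists_herm_ne_zero hF hu0
    have hy' : hermForm n F q y u ≠ 0 := fun h => hy (herm_eq_zero_swap hF h)
    have h4 := hN y
    rw [h3, Matrix.zero_mulVec] at h4
    rcases smul_eq_zero.1 h4.symm with h | h
    · exact (mul_ne_zero (neg_ne_zero.2 htt) hy') h
    · exact hu0 h
  obtain ⟨i, j, hij⟩ : ∃ i j, (Q * N * (P : Matrix (Fin n) (Fin n) F)) i j ≠ 0 := by
    by_contra hcon
    push Not at hcon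
    exact hN0 (by ext i j; exact hcon i j)
  set e := (Q * N * (P : Matrix (Fin n) (Fin n) F)) i j with he
  have h2F : (2 : F) ∈ F₁ := by
    have : (2 : F) = 1 + 1 := by norm_num
    rw [this]
    exact F₁.add_mem F₁.one_mem F₁.one_mem
  have h1F : (2 : F) * (1 : Matrix (Fin n) (Fin n) F) i j ∈ F₁ := by
    apply F₁.mul_mem h2F
    rw [Matrix.one_apply]
    split_ifs
    · exact F₁.one_mem
    · exact F₁.zero_mem
  have hsq : ∀ a : F, a ^ q = a → a ^ 2 * e ∈ F₁ := by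
    intro a ha
    have h3 := F₁.add_mem (hrat (ht.smul hτ ha) i j) (hrat ((ht.smul hτ ha).neg hF hτ) i j)
    rw [← Matrix.add_apply, Units.val_mul, Units.val_mul, Units.val_mul, Units.val_mul, ← Matrix.add_mul, ← Matrix.mul_add,
      hNa a ha, Matrix.mul_add, Matrix.add_mul, Matrix.mul_smul, Matrix.mul_smul, Matrix.mul_one, Matrix.smul_mul,
      Matrix.smul_mul, ← hQ, hQP, Matrix.add_apply, Matrix.smul_apply, Matrix.smul_apply, smul_eq_mul, smul_eq_mul,
      ← he] at h3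
    have h4 := F₁.sub_mem h3 h1F
    rwa [add_sub_cancel_left] at h4
  have heF : e ∈ F₁ := by
    have := hsq 1 (one_pow _)
    rwa [one_pow, one_mul] at this
  have hsq' : ∀ a : F, a ^ q = a → a ^ 2 ∈ F₁ := by
    intro a ha
    have h3 := F₁.mul_mem (hsq a ha) (F₁.inv_mem heF)
    rwa [mul_inv_cancel_right₀ hij] at h3
  have hall : ∀ a : F, a ^ q = a → a ∈ F₁ := by
    intro a ha
    have h3 := hsq' (a + 1) (by rw [add_pow_q hF, ha, one_pow])
    have h4 := hsq' a ha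
    have h5 : (2 : F) * a ∈ F₁ := by
      have := F₁.sub_mem (F₁.sub_mem h3 h4) F₁.one_mem
      have e1 : (a + 1) ^ 2 - a ^ 2 - 1 = 2 * a := by ring
      rwa [e1] at this
    have h6 := F₁.mul_mem (F₁.inv_mem h2F) h5
    rwa [inv_mul_cancel_left₀ h2] at h6
  -- cardinalities
  have hc : q ≤ Nat.card F₁ := by
    have h3 := card_fixed hF
    rw [← h3]
    have : Finite F₁ := inferInstance
    refine Nat.card_le_card_of_injective (fun x : {x : F // x ^ q = x} => (⟨x.1, hall x.1 x.2⟩ : F₁)) ?_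
    intro x y hxy
    have h5 := congrArg (fun z : F₁ => (z : F)) hxy
    exact Subtype.ext h5
  rw [hF] at hcard
  have h2q := two_le hF
  have h3 : q ^ 3 ≤ q ^ 2 := by
    rw [hcard]
    exact (Nat.pow_le_pow_left hc 3).trans (Nat.pow_le_pow_right (by omega) hr)
  have h4 : q ^ 2 < q ^ 3 := Nat.pow_lt_pow_right (by omega) (by norm_num)
  omega

include hF hτ h2 in
/-- subfields of index two: the semilinear maps are proportional -/
theorem HasReal.two_sub {M : Subgroup (GL (Fin n) F)} (hM : HasReal hF hτ h2 M) (hn : 4 ≤ n)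
    {F₁ : Subfield F} {P : GL (Fin n) F} (hcard : Fintype.card F = Nat.card F₁ ^ 2)
    (hMP : M ≤ Geo.subfieldSubgroup F₁ P) : ∃ c : F, c ≠ 0 ∧ ∀ y, tauP q P y = c • τ y := by
  obtain ⟨p, k, hp, hchar, hk, -⟩ := exists_prime_pow hF
  have hpF : Fact p.Prime := ⟨hp⟩
  have hp0 : (p : F) = 0 := CharP.cast_eq_zero F p
  obtain ⟨c, hc⟩ := comm_scalar hF hτ h2 hn (fun y => tauP q P (τ y))
    (fun x y => by rw [hτ.add, tauP_add hF]) (fun a x => by rw [hτ.smul, tauP_smul, pow_q_pow_q hF]) (by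
    intro u x h y
    have h1 : sf q u x (τ y) = τ (sf q u x y) := by
      have := siegel_real_comm hτ hF h2 h.hu h.hx h.iso h.orth y
      rw [act_siegel, act_siegel] at this
      exact this
    have h3 := tauP_comm hF hcard (P := P) (g := sgm hF hτ h2 h) (l := 1) (by
      intro i j
      rw [one_mul]
      exact rational_of_pow (p := p) (hMP (hM h)) (sgm_pow_char hF hτ h2 hp0 h) i j) (τ y)
    rw [one_smul, one_smul, sgm_mulVec, sgm_mulVec] at h3
    rw [← h1, h3])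
  refine ⟨c, ?_, ?_⟩
  · rintro rfl
    obtain ⟨u, t, hu0, ht, htt⟩ := exists_good hF hτ h2 hn
    have h1 := hc u
    rw [zero_smul] at h1
    have h3 : tauP q P (tauP q P (τ u)) = tauP q P 0 := by rw [h1]
    rw [tauP_tauP hF] at h3
    have h4 : tauP q P (0 : Fin n → F) = 0 := by
      have := tauP_smul (q := q) P (0 : F) (0 : Fin n → F)
      rw [zero_smul, zero_pow_q hF, zero_smul] at this
      exact this
    rw [h4, ht.hu] at h3
    exact hu0 h3
  · intro y
    have := hc (τ y)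
    rwa [hτ.invol] at this

include hF hτ h2 in
/-- symplectic type is impossible -/
theorem HasReal.no_symp {M : Subgroup (GL (Fin n) F)} (hM : HasReal hF hτ h2 M) (hn : 4 ≤ n)
    {F₁ : Subfield F} {P : GL (Fin n) F} (hcard : Fintype.card F = Nat.card F₁ ^ 2)
    (hMP : M ≤ Geo.subfieldSubgroup F₁ P)
    (hiso : ∀ u : Fin n → F, (∀ i, u i ∈ F₁) → hermForm n F q ((P : Matrix (Fin n) (Fin n) F) *ᵥ u)
      ((P : Matrix (Fin n) (Fin n) F) *ᵥ u) = 0) : False := by
  obtain ⟨c, hc0, hc⟩ := hM.two_sub hF hτ h2 hn hcard hMP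
  obtain ⟨u, t, hu0, ht, htt⟩ := exists_good hF hτ h2 hn
  have h1 : tauP q P t = c • t := by rw [hc, ht.hx]
  -- a scalar
  obtain ⟨r, hr⟩ : ∃ r : F, r + r ^ q * c ≠ 0 := by
    by_contra hcon
    push Not at hcon
    have h3 := hcon 1
    rw [one_pow, one_mul] at h3
    have hc1 : c = -1 := by linear_combination h3
    obtain ⟨κ, hκ0, hκ⟩ := exists_kappa hF
    have h4 := hcon κ
    rw [hκ, hc1] at h4
    have h5 : (2 : F) * κ = 0 := by linear_combination h4
    exact (mul_ne_zero h2 hκ0) h5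
  set s := r + r ^ q * c with hs
  have h3 : tauP q P (s • t) = s • t := by
    have e : s • t = r • t + tauP q P (r • t) := by
      rw [tauP_smul, h1, smul_smul, ← add_smul]
    rw [e, tauP_add hF, tauP_tauP hF, add_comm]
  have h4 : ∀ i, (((P⁻¹ : GL (Fin n) F) : Matrix (Fin n) (Fin n) F) *ᵥ (s • t)) i ∈ F₁ := by
    intro i
    rw [mem_iff_pow hF hcard]
    have h5 := congrArg (fun v => ((P⁻¹ : GL (Fin n) F) : Matrix (Fin n) (Fin n) F) *ᵥ v) h3
    rw [tauP, inv_mulVec_mulVec] at h5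
    exact congrFun h5 i
  have h5 := hiso _ h4
  rw [mulVec_inv_mulVec, herm_smul_left, herm_smul_right] at h5
  rcases mul_eq_zero.1 h5 with h | h
  · exact hr h
  · rcases mul_eq_zero.1 h with h | h
    · exact hr ((pow_q_eq_zero hF).1 h)
    · exact htt h

end elt

section main

variable {F : Type*} [Field F] [Fintype F] {q : ℕ}

theorem prime_dvd_5040 (hq : q.Prime) (h5 : 5 ≤ q) (h : q ^ 2 ∣ 5040) : False := by
  have h1 : q ^ 2 ≤ 5040 := Nat.le_of_dvd (by norm_num) h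
  have h3 : q ≤ 70 := by nlinarith
  interval_cases q <;> revert h hq <;> norm_num

theorem prime_dvd_51840 (hq : q.Prime) (h5 : 5 ≤ q) (h : q ^ 2 ∣ 51840) : False := by
  have h1 : q ^ 2 ≤ 51840 := Nat.le_of_dvd (by norm_num) h
  have h3 : q ≤ 227 := by nlinarith
  interval_cases q <;> revert h hq <;> norm_num

theorem coprime_thirty (hq : q.Prime) (h5 : 5 ≤ q) (h34 : q % 4 = 3) : Nat.Coprime q 30 := by
  rw [Nat.Prime.coprime_iff_not_dvd hq]
  intro h7
  have h8 := Nat.le_of_dvd (by norm_num) h7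
  interval_cases q <;> revert hq h7 h34 <;> norm_num

/-- **Item (8)**: the subgroups of orthogonal type are maximal in `SU_4(q)`, `q ≥ 5` odd. -/
theorem orth_maximal (hRes : Res F q) (hF : Fintype.card F = q ^ 2) (hodd : Odd q) (h5 : 5 ≤ q)
    (F₀ : Subfield F) (P : GL (Fin 4) F) (hcard : Fintype.card F = Nat.card F₀ ^ 2)
    (hP : Geo.IsFormRationalStructure (hermForm 4 F q) F₀ 1 P) :
    Geo.IsMaximalIn (GU 4 F q ⊓ Geo.specialLinear (Fin 4) F)
      (Geo.subfieldSubgroup F₀ P ⊓ (GU 4 F q ⊓ Geo.specialLinear (Fin 4) F)) := by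
  have hτ : IsReal q (tauP q P) := isReal_tauP hF hcard hP
  have h2 : (2 : F) ≠ 0 := two_ne_zero_of_odd hF hodd
  have hF₀ : F₀ ≠ ⊤ := by
    rintro rfl
    have h1 := card_subfield hF hcard
    have h3 : Nat.card (⊤ : Subfield F) = Nat.card F := Nat.card_congr Subfield.topEquiv.toEquiv
    rw [h3, Nat.card_eq_fintype_card, hF] at h1
    nlinarith
  apply isMaximalIn_of_forall
  · refine lt_of_le_of_ne inf_le_right (fun h => ?_)
    exact H918.SUg_not_le_subfieldSubgroup hF (by norm_num) (by norm_num) hF₀ P (inf_eq_right.1 h)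
  intro M hM hHM
  have hMR : HasReal hF hτ h2 M := by
    intro u x h
    apply hHM
    refine ⟨?_, sgm_mem_SU hF hτ h2 h⟩
    apply mem_subfieldSubgroup_of_comm hF hcard (l := 1) one_ne_zero
    intro y
    rw [one_smul, one_smul]
    exact (siegel_real_comm hτ hF h2 h.hu h.hx h.iso h.orth y).symm
  obtain ⟨p, k, hp, hchar, hk, -⟩ := exists_prime_pow hF
  rcases Cfsg.Agent.S5784.result q hF M hM with ⟨W, hW0, hW, rfl⟩ | ⟨W, hW0, hW, hWd, rfl⟩ | ⟨-, D, hD, rfl⟩ |
    ⟨-, D, hD, rfl⟩ | ⟨-, D, hD, -, rfl⟩ | ⟨F₁, r, P', hr, hro, hcard', -, rfl⟩ |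
    ⟨F₁, P', ζ, hcard', -, -, -, hiso, rfl⟩ |
    ⟨-, F₁, P', hcard', -, rfl⟩ | ⟨p', R, hp', hqp, hp4, hR, habs, hsim, hcardR, hcen, rfl⟩ | hres
  · exfalso
    rcases hMR.irr hF hτ h2 (by norm_num) inf_le_left with h3 | h3
    · exact hW0 h3
    · have := hW (Pi.single 0 1) (by rw [h3]; trivial) (Pi.single 0 1) (by rw [h3]; trivial)
      rw [herm_single] at this
      exact one_ne_zero this
  · exfalso
    rcases hMR.irr hF hτ h2 (by norm_num) inf_le_left with h3 | h3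
    · exact hW0 h3
    · rw [h3, finrank_top, Module.finrank_fin_fun] at hWd
      omega
  · exact (hMR.frame hF hτ h2 (by norm_num) h5 hcard hD.decomp inf_le_left).elim
  · exact (hMR.two hF hτ h2 (by norm_num) (by norm_num) hD.decomp inf_le_left).elim
  · exact (hMR.two hF hτ h2 (by norm_num) (by norm_num) hD inf_le_left).elim
  · exact (hMR.odd_sub hF hτ h2 (by norm_num) (by
      have := hr.two_le
      rcases hro with ⟨m, hm⟩
      omega) hcard' inf_le_left).elim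
  · exact (hMR.no_symp hF hτ h2 (by norm_num) hcard' inf_le_left hiso).elim
  · obtain ⟨c, hc0, hc⟩ := hMR.two_sub hF hτ h2 (by norm_num) hcard' inf_le_left
    refine le_antisymm ?_ hHM
    rintro g ⟨hg, hgS⟩
    refine ⟨?_, hgS⟩
    obtain ⟨A, rfl⟩ := H918.exists_suHom hgS
    obtain ⟨l, hl, hl'⟩ := H914.mem_subfieldSubgroup_iff.1 hg
    apply mem_subfieldSubgroup_of_comm hF hcard hl
    intro y
    have h3 := tauP_comm hF hcard' hl' y
    rw [hc, hc] at h3
    change c • tauP q P (l • act A y) = l • act A (c • tauP q P y) at h3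
    rw [act_smul, smul_comm l c] at h3
    exact smul_right_injective _ hc0 h3
  · exfalso
    have h6 : C6 R := ⟨hR, habs, hcardR, hcen⟩
    obtain ⟨u, t, hu0, ht, htt⟩ := exists_good hF hτ h2 (by norm_num : 4 ≤ 4)
    have hq : q.Prime := by rw [hqp]; exact hp'
    have hpq : p = q := by
      have h7 : p ∣ q := by rw [hk]; exact dvd_pow_self _ (by rintro rfl; rw [pow_zero] at hk; omega)
      exact (Nat.prime_dvd_prime_iff_eq hp hq).1 h7
    have hp0 : (q : F) = 0 := by rw [← hpq]; exact CharP.cast_eq_zero F p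
    have hcop : Nat.Coprime q 30 := coprime_thirty hq h5 (by rw [hqp]; exact hp4)
    have h7 := h6.mem_scalars ((inf_le_left : _ ≤ Geo.subgroupNormalizer R) (hMR ht)) hcop (sgm_pow_char hF hτ h2 hp0 ht)
    have h8 := orth_of_sgm_scalar hF hτ h2 ht hu0 h7 t ht.orth
    exact htt h8
  · exfalso
    obtain ⟨u, t, hu0, ht, htt⟩ := exists_good hF hτ h2 (by norm_num : 4 ≤ 4)
    obtain ⟨t₁, t₂, h₁, h₂, h11, h22, h21⟩ := exists_two_perp hF hτ h2 (by norm_num) ht.hu hu0 ht.iso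
    obtain ⟨hq, h3⟩ := hRes.card_dvd hM hres (show q ≠ 3 by omega) (sgHom hF hτ h2 hcard h₁ h₂) (fun x => by
      obtain ⟨h, hx⟩ := sgHom_apply hF hτ h2 hcard h₁ h₂ x
      rw [hx]
      exact hMR h) (fun x hx => sgHom_scalar hF hτ h2 hcard h₁ h₂ hu0 h11 h22 h21 x hx)
    have h4 : Nat.card (Multiplicative (F₀ × F₀)) = q ^ 2 := by
      rw [Nat.card_congr Multiplicative.toAdd, Nat.card_prod, card_subfield hF hcard, pow_two]
    rw [h4] at h3
    rcases h3 with h3 | ⟨h3, -⟩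
    · exact prime_dvd_5040 hq h5 h3
    · exact prime_dvd_51840 hq h5 h3

end main

end Cfsg.Agent.H900.SU4
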