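import Cfsg.Agent.H927.OrthMax
import Cfsg.Agent.ClassicalGeometry.HermOrtho

/-!
# The real Siegel elements of `SU_n(q)` (q odd, n ≥ 4): irreducibility and commutant

`IsReal q τ`. The group generated by the Siegel elements with real parameters acts irreducibly (`irr`), and the
linear maps commuting with them are scalars (`comm_scalar`).
-/

set_option autoImplicit false
open Cfsg
open scoped Matrix MatrixGroups

namespace Cfsg.Agent.H900.SU4

open Cfsg.Agent.LieClassical.HermBasic Cfsg.Agent.LieClassical.HermSiegel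
open Cfsg.Agent.ClassicalGeometry.HermOrtho Cfsg.Agent.H927

variable {F : Type*} [Field F] [Fintype F] {n q : ℕ}
variable (hF : Fintype.card F = q ^ 2) {τ : (Fin n → F) → (Fin n → F)} (hτ : IsReal q τ) (h2 : (2 : F) ≠ 0)

/-- The formula of the real Siegel element. -/
def sf (q : ℕ) (u x y : Fin n → F) : Fin n → F :=
  y + hermForm n F q y u • x +
    (-(hermForm n F q x x / 2) * hermForm n F q y u - hermForm n F q y x) • u

/-- admissible parameters of real Siegel elements -/
structure RP (q : ℕ) (τ : (Fin n → F) → (Fin n → F)) (u x : Fin n → F) : Prop where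
  hu : τ u = u
  hx : τ x = x
  iso : hermForm n F q u u = 0
  orth : hermForm n F q x u = 0

include hF hτ in
theorem RP.neg {u x : Fin n → F} (h : RP q τ u x) : RP q τ u (-x) :=
  ⟨h.hu, by rw [hτ.neg' hF, h.hx], h.iso, by rw [herm_neg_left, h.orth, neg_zero]⟩

include hF in
theorem sf_add_sf_neg {u x : Fin n → F} (y : Fin n → F) (h2 : (2 : F) ≠ 0) :
    sf q u x y + sf q u (-x) y = (2 : F) • y + (-(hermForm n F q x x) * hermForm n F q y u) • u := by
  unfold sf
  rw [herm_neg_left, herm_neg_right hF, herm_neg_right hF, neg_neg]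
  funext i
  simp only [Pi.add_apply, Pi.smul_apply, smul_eq_mul, Pi.neg_apply]
  field_simp
  ring

include hF hτ h2

/-- A real anisotropic vector orthogonal to a real isotropic one. -/
theorem exists_aniso_perp_one (hn : 4 ≤ n) {u : Fin n → F} (hu : τ u = u) (hu0 : u ≠ 0)
    (huu : hermForm n F q u u = 0) : ∃ x, RP q τ u x ∧ hermForm n F q x x ≠ 0 := by
  have hT : Nd q τ (⊤ : Submodule F (Fin n → F)) := Nd.top hF
  obtain ⟨u', -, hu', huu', huu1⟩ := hT.exists_partner hF hτ h2 Submodule.mem_top hu hu0 huu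
  have hW := hT.cutPair hF (w := u) (w' := u') Submodule.mem_top Submodule.mem_top huu huu'
    (by rw [huu1]; exact one_ne_zero) (fun x => pair_stable hF hτ h2 hu hu' x)
  have hd1 := finrank_inf_perp hF (⊤ : Submodule F (Fin n → F)) u
  have hd2 := finrank_inf_perp hF ((⊤ : Submodule F (Fin n → F)) ⊓ perp hF u) u'
  rw [finrank_top, Module.finrank_fin_fun] at hd1
  obtain ⟨t, ht, htr, htt⟩ := hW.exists_aniso hF hτ h2 (Nd.ne_bot_of_finrank (by omega))
  exact ⟨t, ⟨hu, htr, huu, ht.1.2⟩, htt⟩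

/-- Two orthogonal real isotropic vectors have a common non-orthogonal real isotropic vector. -/
theorem exists_link {u s : Fin n → F} (hu : τ u = u) (hu0 : u ≠ 0) (huu : hermForm n F q u u = 0)
    (hs : τ s = s) (hs0 : s ≠ 0) (hss : hermForm n F q s s = 0) (h3 : hermForm n F q s u = 0) :
    ∃ v, τ v = v ∧ hermForm n F q v v = 0 ∧ hermForm n F q u v ≠ 0 ∧ hermForm n F q s v ≠ 0 := by
  have hT : Nd q τ (⊤ : Submodule F (Fin n → F)) := Nd.top hF
  obtain ⟨u', -, hu', huu', huu1⟩ := hT.exists_partner hF hτ h2 Submodule.mem_top hu hu0 huu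
  by_cases h1 : hermForm n F q s u' = 0
  swap
  · exact ⟨u', hu', huu', by rw [huu1]; exact one_ne_zero, h1⟩
  have hW := hT.cutPair hF (w := u) (w' := u') Submodule.mem_top Submodule.mem_top huu huu'
    (by rw [huu1]; exact one_ne_zero) (fun x => pair_stable hF hτ h2 hu hu' x)
  obtain ⟨s', hs'W, hs'r, hs's', hss'⟩ := hW.exists_partner hF hτ h2 (e := s)
    ⟨⟨Submodule.mem_top, h3⟩, h1⟩ hs hs0 hss
  have e1 : hermForm n F q s' u = 0 := hs'W.1.2
  have e2 : hermForm n F q s' u' = 0 := hs'W.2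
  have e3 : hermForm n F q u s' = 0 := herm_eq_zero_swap hF e1
  have e4 : hermForm n F q u' s' = 0 := herm_eq_zero_swap hF e2
  refine ⟨u' + s', by rw [hτ.add, hu', hs'r], ?_, ?_, ?_⟩
  · rw [herm_add_left, herm_add_right hF, herm_add_right hF, huu', hs's', e2, e4]
    ring
  · rw [herm_add_right hF, huu1, e3, add_zero]
    exact one_ne_zero
  · rw [herm_add_right hF, h1, hss', zero_add]
    exact one_ne_zero

/-- real isotropic vectors separate -/
theorem exists_iso_all (hn : 4 ≤ n) {x : Fin n → F} (hx0 : x ≠ 0) :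
    ∃ s, τ s = s ∧ hermForm n F q s s = 0 ∧ hermForm n F q x s ≠ 0 := by
  obtain ⟨s, -, h⟩ := (Nd.top (τ := τ) hF).exists_iso hF hτ h2 (by rw [finrank_top, Module.finrank_fin_fun]; omega)
    Submodule.mem_top hx0
  exact ⟨s, h⟩

/-- **Irreducibility.** -/
theorem irr (hn : 4 ≤ n) {W : Submodule F (Fin n → F)}
    (hW : ∀ u x, RP q τ u x → ∀ w ∈ W, sf q u x w ∈ W) (hW0 : W ≠ ⊥) : W = ⊤ := by
  have key : ∀ w ∈ W, ∀ u, τ u = u → hermForm n F q u u = 0 → hermForm n F q w u ≠ 0 → u ∈ W := by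
    intro w hw u hu huu hwu
    have hu0 : u ≠ 0 := by
      rintro rfl
      exact hwu (herm_zero_right hF _)
    obtain ⟨x, hx, hxx⟩ := exists_aniso_perp_one hF hτ h2 hn hu hu0 huu
    have h1 := W.sub_mem (W.add_mem (hW u x hx w hw) (hW u (-x) (hx.neg hF hτ) w hw)) (W.smul_mem (2 : F) hw)
    rw [sf_add_sf_neg hF _ h2, add_sub_cancel_left] at h1
    have h3 := W.smul_mem (-(hermForm n F q x x) * hermForm n F q w u)⁻¹ h1
    rwa [smul_smul, inv_mul_cancel₀ (mul_ne_zero (neg_ne_zero.2 hxx) hwu), one_smul] at h3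
  obtain ⟨w, hw, hw0⟩ := Submodule.exists_mem_ne_zero_of_ne_bot hW0
  obtain ⟨u, hu, huu, hwu⟩ := exists_iso_all hF hτ h2 hn hw0
  have huW := key w hw u hu huu hwu
  have hu0 : u ≠ 0 := by
    rintro rfl
    exact hwu (herm_zero_right hF _)
  have hall : ∀ v, τ v = v → hermForm n F q v v = 0 → v ∈ W := by
    intro v hv hvv
    by_cases hv0 : v = 0
    · rw [hv0]; exact W.zero_mem
    by_cases huv : hermForm n F q u v = 0
    · obtain ⟨a, ha, haa, hua, hva⟩ := exists_link hF hτ h2 hu hu0 huu hv hv0 hvv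
        (herm_eq_zero_swap hF huv)
      have haW := key u huW a ha haa hua
      exact key a haW v hv hvv (fun h => hva (herm_eq_zero_swap hF h))
    · exact key u huW v hv hvv huv
  have hperp : ∀ y, (∀ v ∈ W, hermForm n F q y v = 0) → y = 0 := by
    intro y hy
    by_contra hy0
    obtain ⟨s, hs, hss, hys⟩ := exists_iso_all hF hτ h2 hn hy0
    exact hys (hy s (hall s hs hss))
  have hc := isCompl_hermPerp hF W (fun y _ hy => hperp y hy)
  have hb : (hermPerp q (W : Set (Fin n → F)) : Submodule F (Fin n → F)) = ⊥ := by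
    rw [eq_bot_iff]
    intro y hy
    rw [Submodule.mem_bot]
    exact hperp y (fun v hv => hy v hv)
  rw [hb] at hc
  exact hc.sup_eq_top ▸ (sup_bot_eq W).symm

/-- **Commutant.** -/
theorem comm_scalar (hn : 4 ≤ n) (T : (Fin n → F) → (Fin n → F)) (hadd : ∀ x y, T (x + y) = T x + T y)
    (hsmul : ∀ (c : F) x, T (c • x) = c • T x)
    (hT : ∀ u x, RP q τ u x → ∀ y, T (sf q u x y) = sf q u x (T y)) : ∃ c : F, ∀ y, T y = c • y := by
  have key : ∀ u, τ u = u → hermForm n F q u u = 0 → u ≠ 0 → ∃ l : F, T u = l • u ∧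
      ∀ y, hermForm n F q (T y) u = l * hermForm n F q y u := by
    intro u hu huu hu0
    obtain ⟨x, hx, hxx⟩ := exists_aniso_perp_one hF hτ h2 hn hu hu0 huu
    have h1 : ∀ y, hermForm n F q y u • T u = hermForm n F q (T y) u • u := by
      intro y
      have h3 : T (sf q u x y + sf q u (-x) y) = sf q u x (T y) + sf q u (-x) (T y) := by
        rw [hadd, hT u x hx, hT u (-x) (hx.neg hF hτ)]
      rw [sf_add_sf_neg hF _ h2, sf_add_sf_neg hF _ h2, hadd, hsmul, hsmul, add_right_inj, mul_smul, mul_smul] at h3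
      exact smul_right_injective _ (neg_ne_zero.2 hxx) h3
    obtain ⟨y₀, hy₀⟩ := exists_herm_ne_zero hF hu0
    have hy₀' : hermForm n F q y₀ u ≠ 0 := fun h => hy₀ (herm_eq_zero_swap hF h)
    refine ⟨(hermForm n F q y₀ u)⁻¹ * hermForm n F q (T y₀) u, ?_, ?_⟩
    · rw [mul_smul, ← h1 y₀, smul_smul, inv_mul_cancel₀ hy₀', one_smul]
    · intro y
      have h3 := h1 y
      have h4 : T u = ((hermForm n F q y₀ u)⁻¹ * hermForm n F q (T y₀) u) • u := by
        rw [mul_smul, ← h1 y₀, smul_smul, inv_mul_cancel₀ hy₀', one_smul]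
      rw [h4, smul_smul] at h3
      have h5 := smul_left_injective F hu0 h3
      rw [← h5]
      ring
  have hne : ∃ x : Fin n → F, x ≠ 0 := ⟨Pi.single ⟨0, by omega⟩ 1, fun h => by
    have := congrFun h ⟨0, by omega⟩
    rw [Pi.single_eq_same] at this
    exact one_ne_zero this⟩
  obtain ⟨x₀, hx₀⟩ := hne
  obtain ⟨u, hu, huu, hxu⟩ := exists_iso_all hF hτ h2 hn hx₀
  have hu0 : u ≠ 0 := by
    rintro rfl
    exact hxu (herm_zero_right hF _)
  obtain ⟨l, hl, hl'⟩ := key u hu huu hu0
  have hstep : ∀ v w : Fin n → F, τ v = v → hermForm n F q v v = 0 → τ w = w → hermForm n F q w w = 0 →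
      hermForm n F q v w ≠ 0 → T v = l • v → T w = l • w ∧
      ∀ y, hermForm n F q (T y) w = l * hermForm n F q y w := by
    intro v w hv hvv hw hww hvw hTv
    have hw0 : w ≠ 0 := by
      rintro rfl
      exact hvw (herm_zero_right hF _)
    obtain ⟨m, hm, hm'⟩ := key w hw hww hw0
    have h3 := hm' v
    rw [hTv, herm_smul_left] at h3
    have h4 : l = m := mul_right_cancel₀ hvw h3
    rw [h4]
    exact ⟨hm, hm'⟩
  refine ⟨l, fun y => ?_⟩
  by_contra hy
  have hy0 : T y - l • y ≠ 0 := sub_ne_zero.2 hy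
  obtain ⟨v, hv, hvv, hyv⟩ := exists_iso_all hF hτ h2 hn hy0
  have hv0 : v ≠ 0 := by
    rintro rfl
    exact hyv (herm_zero_right hF _)
  apply hyv
  rw [herm_sub_left, herm_smul_left]
  have hfin : ∀ z, hermForm n F q (T z) v = l * hermForm n F q z v := by
    by_cases huv : hermForm n F q u v = 0
    · obtain ⟨a, ha, haa, hua, hva⟩ := exists_link hF hτ h2 hu hu0 huu hv hv0 hvv
        (herm_eq_zero_swap hF huv)
      have h3 := hstep u a hu huu ha haa hua hl
      exact (hstep a v ha haa hv hvv (fun h => hva (herm_eq_zero_swap hF h)) h3.1).2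
    · exact (hstep u v hu huu hv hvv huv hl).2
  rw [hfin, sub_self]

end Cfsg.Agent.H900.SU4
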