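import Cfsg.Agent.H900.SU4.Core6
import Cfsg.Agent.H927.OrthMax
import Cfsg.Agent.H918.UBase

/-!
# The perfect part of the normaliser of `4 ∘ 2^{1+4}` in `GL_4(F)`
-/

set_option autoImplicit false
open Cfsg
open scoped Matrix MatrixGroups commutatorElement

namespace Cfsg.Agent.H900.SU4

open Cfsg.Geo Cfsg.Agent.H920 Cfsg.Agent.LieClassical.SpFourTwo Cfsg.Agent.ClassicalGeometry.SympBasic

section group

variable {F : Type*} [Field F] {R : Subgroup (GL (Fin 4) F)}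

/-- The perfect part of `N(R)`: it induces (at least) `A_6`. -/
structure Part (C : Coord R 2 2) (Y : Subgroup (GL (Fin 4) F)) : Prop where
  le : Y ≤ subgroupNormalizer R
  perfect : ⁅Y, Y⁆ = Y
  normal : ∀ g ∈ subgroupNormalizer R, ∀ y ∈ Y, g * y * g⁻¹ ∈ Y
  ind : ∀ A ∈ K6, ∃ g ∈ Y, C.Ind g (A : Matrix (Fin 2 ⊕ Fin 2) (Fin 2 ⊕ Fin 2) (ZMod 2))

theorem ind_derivedSeries_K6 [Finite R] (C : Coord R 2 2)
    (hall : ∀ A : Sp42, ∃ g : GL (Fin 4) F, C.Ind g (A : Matrix (Fin 2 ⊕ Fin 2) (Fin 2 ⊕ Fin 2) (ZMod 2)))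
    (n : ℕ) : ∀ A ∈ K6, ∃ g ∈ derivedSeries (subgroupNormalizer R) n,
      C.Ind (g : GL (Fin 4) F) (A : Matrix (Fin 2 ⊕ Fin 2) (Fin 2 ⊕ Fin 2) (ZMod 2)) := by
  induction n with
  | zero =>
    intro A _
    obtain ⟨g, hg⟩ := hall A
    exact ⟨⟨g, hg.mem_normalizer⟩, Subgroup.mem_top _, hg⟩
  | succ n ih =>
    intro A hA
    rw [← K6_perfect, Subgroup.commutator_def] at hA
    induction hA using Subgroup.closure_induction with
    | mem A hA =>
      obtain ⟨B₁, hB₁, B₂, hB₂, rfl⟩ := hA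
      obtain ⟨g₁, h₁, h₁'⟩ := ih B₁ hB₁
      obtain ⟨g₂, h₂, h₂'⟩ := ih B₂ hB₂
      refine ⟨⁅g₁, g₂⁆, Subgroup.commutator_mem_commutator h₁ h₂, ?_⟩
      rw [commutatorElement_def, commutatorElement_def]
      exact ((h₁'.mul h₂').mul h₁'.invS).mul h₂'.invS
    | one => exact ⟨1, Subgroup.one_mem _, Coord.Ind.one C⟩
    | mul A B _ _ hA hB =>
      obtain ⟨g₁, h₁, h₁'⟩ := hA
      obtain ⟨g₂, h₂, h₂'⟩ := hB
      exact ⟨g₁ * g₂, Subgroup.mul_mem _ h₁ h₂, h₁'.mul h₂'⟩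
    | inv A _ hA =>
      obtain ⟨g₁, h₁, h₁'⟩ := hA
      exact ⟨g₁⁻¹, Subgroup.inv_mem _ h₁, h₁'.invS⟩

theorem C6.exists_part [Finite F] (h : C6 R) : ∃ (C : Coord R 2 2) (Y : Subgroup (GL (Fin 4) F)), Part C Y := by
  have hfin := h.finite
  have hfin' : Finite (GL (Fin 4) F) := inferInstance
  obtain ⟨C, hall⟩ := h.exists_coord
  obtain ⟨N, hN, hperf', n, hn⟩ := exists_perfect_residual (subgroupNormalizer R)
  refine ⟨C, N.map (subgroupNormalizer R).subtype, ?_, ?_, ?_, ?_⟩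
  · rintro _ ⟨x, -, rfl⟩
    exact x.2
  · rw [← Subgroup.map_commutator, hperf']
  · exact conj_mem_map inferInstance
  · intro A hA
    obtain ⟨g, hg, hg'⟩ := ind_derivedSeries_K6 C hall n A hA
    rw [hn] at hg
    exact ⟨g, ⟨g, hg, rfl⟩, hg'⟩

variable {C : Coord R 2 2} {Y : Subgroup (GL (Fin 4) F)}

theorem exists_two : ∃ a b : Fin 2 ⊕ Fin 2 → ZMod 2, a ≠ 0 ∧ b ≠ 0 ∧ b - a ≠ 0 := by
  refine ⟨Pi.single (Sum.inl 0) 1, Pi.single (Sum.inl 1) 1, ?_, ?_, ?_⟩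
  · intro h
    have := congrFun h (Sum.inl 0)
    rw [Pi.single_eq_same] at this
    exact one_ne_zero this
  · intro h
    have := congrFun h (Sum.inl 1)
    rw [Pi.single_eq_same] at this
    exact one_ne_zero this
  · intro h
    have := congrFun h (Sum.inl 1)
    rw [Pi.sub_apply, Pi.single_eq_same, Pi.single_eq_of_ne (by decide)] at this
    simp at this

/-- each coset of the scalars in `R` meets `Y`. -/
theorem Part.exists_mem_inf (hY : Part C Y) (v : Fin 2 ⊕ Fin 2 → ZMod 2) :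
    ∃ x : R, C.φ x = v ∧ (x : GL (Fin 4) F) ∈ Y := by
  rcases eq_or_ne v 0 with rfl | hv
  · exact ⟨1, C.φ_one, Subgroup.one_mem _⟩
  obtain ⟨a, b, ha, hb, hab⟩ := exists_two
  obtain ⟨A, hA, hAab⟩ := K6_trans ha hb
  obtain ⟨y, hyY, hy⟩ := hY.ind A hA
  obtain ⟨a', ha'⟩ := C.surj a
  obtain ⟨b', h1, h2⟩ := hy a'
  have hx : ((b' * a'⁻¹ : R) : GL (Fin 4) F) ∈ Y := by
    rw [Subgroup.coe_mul, Subgroup.coe_inv, ← h1]
    have h3 := hY.normal a' (le_subgroupNormalizer a'.2) y⁻¹ (Y.inv_mem hyY)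
    have h4 := Y.mul_mem hyY h3
    rw [show y * a' * y⁻¹ * (a' : GL (Fin 4) F)⁻¹ = y * (a' * y⁻¹ * (a' : GL (Fin 4) F)⁻¹) by group]
    exact h4
  have hx' : C.φ (b' * a'⁻¹) = b - a := by
    rw [C.map_mul, C.φ_inv, h2, ha', hAab, sub_eq_add_neg]
  obtain ⟨B, hB, hBv⟩ := K6_trans hab hv
  obtain ⟨z, hzY, hz⟩ := hY.ind B hB
  obtain ⟨x', h3, h4⟩ := hz (b' * a'⁻¹)
  refine ⟨x', ?_, ?_⟩
  · rw [h4, hx', hBv]
  · rw [← h3]
    exact Y.mul_mem (Y.mul_mem hzY hx) (Y.inv_mem hzY)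

theorem Part.mem (hY : Part C Y) (x : R) : ∃ z ∈ scalars (Fin 4) F, z * x ∈ Y := by
  obtain ⟨x', h1, h2⟩ := hY.exists_mem_inf (C.φ x)
  rw [eq_comm, C.φ_eq_iff] at h1
  refine ⟨_, h1, ?_⟩
  rw [scalars_comm h1 x, Subgroup.coe_mul, Subgroup.coe_inv, mul_inv_cancel_left]
  exact h2

/-- Transitivity on non-zero vectors. -/
theorem Part.trans (hY : Part C Y) {x x' : R} (hx : C.φ x ≠ 0) (hx' : C.φ x' ≠ 0) :
    ∃ g ∈ Y, ∃ y : R, g * x * g⁻¹ = y ∧ C.φ y = C.φ x' := by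
  obtain ⟨A, hA', hA⟩ := K6_trans hx hx'
  obtain ⟨g, hg, hg'⟩ := hY.ind A hA'
  obtain ⟨y, h1, h2⟩ := hg' x
  refine ⟨g, hg, y, h1, ?_⟩
  rw [h2, hA]

/-- `Y` acts irreducibly. -/
theorem Part.irreducible (hY : Part C Y) (h : C6 R) {W : Submodule F (Fin 4 → F)}
    (hW : ∀ y ∈ Y, ∀ w ∈ W, (y : Matrix (Fin 4) (Fin 4) F) *ᵥ w ∈ W) : W = ⊥ ∨ W = ⊤ := by
  apply h.abs.1
  rintro _ ⟨r, hr, rfl⟩
  rintro _ ⟨w, hw, rfl⟩
  obtain ⟨z, hz, hzr⟩ := hY.mem ⟨r, hr⟩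
  obtain ⟨c, hc⟩ := (mem_scalars_iff z).1 hz
  have h1 := hW _ hzr w hw
  rw [Units.val_mul, hc, Matrix.smul_mul, Matrix.one_mul, Matrix.smul_mulVec] at h1
  have h2 := W.smul_mem (c : F)⁻¹ h1
  rw [smul_smul, inv_mul_cancel₀ c.ne_zero, one_smul] at h2
  rw [Matrix.toLin'_apply]
  exact h2

/-- The action of the normaliser on the coordinates. -/
noncomputable def indHom (C : Coord R 2 2) : subgroupNormalizer R →* Sp42 :=
  MonoidHom.mk' (fun g => ⟨(C.exists_ind_of_mem g.2).choose, (C.exists_ind_of_mem g.2).choose_spec.1⟩) (by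
    intro g h
    apply Subtype.ext
    exact ((C.exists_ind_of_mem (g * h).2).choose_spec.2).unique
      (((C.exists_ind_of_mem g.2).choose_spec.2).mul ((C.exists_ind_of_mem h.2).choose_spec.2)))

theorem indHom_ind (C : Coord R 2 2) (g : subgroupNormalizer R) :
    C.Ind (g : GL (Fin 4) F) (indHom C g : Matrix (Fin 2 ⊕ Fin 2) (Fin 2 ⊕ Fin 2) (ZMod 2)) :=
  (C.exists_ind_of_mem g.2).choose_spec.2

theorem indHom_eq {g : subgroupNormalizer R} {A : Sp42}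
    (h : C.Ind (g : GL (Fin 4) F) (A : Matrix (Fin 2 ⊕ Fin 2) (Fin 2 ⊕ Fin 2) (ZMod 2))) : indHom C g = A :=
  Subtype.ext ((indHom_ind C g).unique h)

theorem coe_one_sp : ((1 : Sp42) : Matrix (Fin 2 ⊕ Fin 2) (Fin 2 ⊕ Fin 2) (ZMod 2)) = 1 := rfl

theorem indHom_eq_one {g : subgroupNormalizer R} (h : C.Ind (g : GL (Fin 4) F) 1) : indHom C g = 1 := by
  apply indHom_eq
  rw [coe_one_sp]
  exact h

/-- elements of `R` (and scalars) induce the identity -/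
theorem ind_one_of_mem {x : GL (Fin 4) F} (hx : x ∈ R) : C.Ind x 1 := by
  intro y
  refine ⟨⟨x, hx⟩ * y * ⟨x, hx⟩⁻¹, rfl, ?_⟩
  rw [C.map_mul, C.map_mul, C.φ_inv, Matrix.one_mulVec]
  abel

theorem ind_one_of_scalar {x : GL (Fin 4) F} (hx : x ∈ scalars (Fin 4) F) : C.Ind x 1 := by
  intro y
  refine ⟨y, ?_, by rw [Matrix.one_mulVec]⟩
  rw [scalars_comm hx, mul_inv_cancel_right]

theorem Part.index_dvd (hY : Part C Y) : 128 ∣ ((scalars (Fin 4) F).subgroupOf Y).index := by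
  let ψ : Y →* Sp42 := (indHom C).comp (Subgroup.inclusion hY.le)
  have hrange : K6 ≤ ψ.range := by
    intro A hA
    obtain ⟨g, hg, hgA⟩ := hY.ind A hA
    exact ⟨⟨g, hg⟩, indHom_eq (g := ⟨g, hY.le hg⟩) hgA⟩
  have h360 : 8 ∣ ψ.ker.index := by
    rw [Subgroup.index_ker]
    have h1 := Subgroup.card_dvd_of_le hrange
    rw [card_K6] at h1
    exact (by norm_num : 8 ∣ 360).trans h1
  set S := (scalars (Fin 4) F).subgroupOf Y with hS
  set T := R.subgroupOf Y with hT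
  have hSk : S ≤ ψ.ker := by
    intro x hx
    have hx' : (x : GL (Fin 4) F) ∈ scalars (Fin 4) F := Subgroup.mem_subgroupOf.1 hx
    have h1 : indHom C (Subgroup.inclusion hY.le x) = 1 := indHom_eq_one (ind_one_of_scalar hx')
    exact h1
  have hTk : T ≤ ψ.ker := by
    intro x hx
    have hx' : (x : GL (Fin 4) F) ∈ R := Subgroup.mem_subgroupOf.1 hx
    have h1 : indHom C (Subgroup.inclusion hY.le x) = 1 := indHom_eq_one (ind_one_of_mem hx')
    exact h1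
  have hST : S.relIndex T = 16 := by
    let f : T →* Multiplicative (Fin 2 ⊕ Fin 2 → ZMod 2) := MonoidHom.mk' (fun t => Multiplicative.ofAdd (C.φ ⟨t, t.2⟩)) (by
      intro a b
      rw [← ofAdd_add, ← C.map_mul]
      rfl)
    have hk : f.ker = S.subgroupOf T := by
      ext t
      rw [MonoidHom.mem_ker, Subgroup.mem_subgroupOf, Subgroup.mem_subgroupOf]
      exact C.ker_iff ⟨t, t.2⟩
    have hsurj : Function.Surjective f := by
      intro v
      obtain ⟨x, hx, hxY⟩ := hY.exists_mem_inf (Multiplicative.toAdd v)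
      refine ⟨⟨⟨x, hxY⟩, x.2⟩, ?_⟩
      change Multiplicative.ofAdd (C.φ x) = v
      rw [hx]
      rfl
    have h1 : (S.subgroupOf T).index = Nat.card f.range := by rw [← hk, Subgroup.index_ker]
    rw [Subgroup.relIndex, h1, MonoidHom.range_eq_top.2 hsurj, Subgroup.card_top]
    rw [Nat.card_eq_fintype_card, Fintype.card_multiplicative]
    rfl
  have h16 : 16 ∣ S.relIndex ψ.ker := by
    have hn : S.Normal := inferInstance
    have hn' : (S.subgroupOf ψ.ker).Normal := inferInstance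
    have h1 := Subgroup.relIndex_dvd_index_of_normal (S.subgroupOf ψ.ker) (T.subgroupOf ψ.ker)
    rw [Subgroup.relIndex_subgroupOf hTk, hST] at h1
    exact h1
  rw [← Subgroup.relIndex_mul_index hSk]
  exact mul_dvd_mul h16 h360

end group

end Cfsg.Agent.H900.SU4
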