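import Cfsg.Agent.H900.SU4.Part
import Cfsg.Agent.H927.OrthMax

/-!
# Normalisers of absolutely irreducible groups of isometries consist of similarities
-/

set_option autoImplicit false
open Cfsg
open scoped Matrix MatrixGroups commutatorElement

namespace Cfsg.Agent.H900.SU4

open Cfsg.Geo Cfsg.Agent.LieClassical.HermBasic

variable {F : Type*} [Field F] [Fintype F] {n q : ℕ}

/-- the matrix `M` with `h(g x, g y) = h(x, M y)` -/
theorem exists_adj (hF : Fintype.card F = q ^ 2) (g : GL (Fin n) F) : ∃ M : Matrix (Fin n) (Fin n) F,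
    ∀ x y : Fin n → F, hermForm n F q ((g : Matrix (Fin n) (Fin n) F) *ᵥ x) ((g : Matrix (Fin n) (Fin n) F) *ᵥ y) =
      hermForm n F q x (M *ᵥ y) := by
  refine ⟨Matrix.of fun i j => hermForm n F q ((g : Matrix (Fin n) (Fin n) F) *ᵥ Pi.single j 1)
    ((g : Matrix (Fin n) (Fin n) F) *ᵥ Pi.single i 1), fun x y => ?_⟩
  rw [Cfsg.Agent.H927.herm_mulVec_mulVec hF, herm_def]
  apply Finset.sum_congr rfl
  intro i _
  rw [← Finset.mul_sum]
  congr 1
  simp only [Matrix.mulVec, dotProduct, Matrix.of_apply]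
  rw [sum_pow_q hF]
  apply Finset.sum_congr rfl
  intro j _
  rw [mul_pow, ← herm_swap hF, mul_comm]

theorem herm_ext_right (hF : Fintype.card F = q ^ 2) {a b : Fin n → F}
    (h : ∀ x, hermForm n F q x a = hermForm n F q x b) : a = b := by
  rw [← sub_eq_zero]
  by_contra hne
  obtain ⟨v, hv⟩ := exists_herm_ne_zero hF hne
  apply hv
  have : hermForm n F q v (a - b) = 0 := by
    rw [herm_sub_right hF, h, sub_self]
  exact herm_eq_zero_swap hF this

theorem normalizer_le_similarity (hF : Fintype.card F = q ^ 2) (hn : 1 ≤ n) {R : Subgroup (GL (Fin n) F)}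
    (habs : ActsAbsolutelyIrreducibly (matrixSet R)) (hR : R ≤ GU n F q) :
    subgroupNormalizer R ≤ similarityGroup (hermForm n F q) := by
  intro g hg
  rw [subgroupNormalizer, Subgroup.mem_normalizer_iff] at hg
  obtain ⟨M, hM⟩ := exists_adj hF g
  have hiso : ∀ r ∈ R, ∀ x y : Fin n → F, hermForm n F q ((r : Matrix (Fin n) (Fin n) F) *ᵥ x)
      ((r : Matrix (Fin n) (Fin n) F) *ᵥ y) = hermForm n F q x y := fun r hr => hR hr
  have hleft : ∀ r ∈ R, ∀ x y : Fin n → F, hermForm n F q x ((r : Matrix (Fin n) (Fin n) F) *ᵥ y) =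
      hermForm n F q (((r⁻¹ : GL (Fin n) F) : Matrix (Fin n) (Fin n) F) *ᵥ x) y := by
    intro r hr x y
    rw [← hiso r hr (((r⁻¹ : GL (Fin n) F) : Matrix (Fin n) (Fin n) F) *ᵥ x) y, Matrix.mulVec_mulVec, ← Units.val_mul,
      mul_inv_cancel, Units.val_one, Matrix.one_mulVec]
  obtain ⟨c, hc⟩ := habs.2 M (by
    rintro _ ⟨r, hr, rfl⟩
    rw [← Matrix.mulVec_injective.eq_iff]
    funext y
    apply herm_ext_right hF
    intro x
    have hr' : g * r * g⁻¹ ∈ R := (hg r).1 hr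
    have e1 : (g : Matrix (Fin n) (Fin n) F) *ᵥ ((r : Matrix (Fin n) (Fin n) F) *ᵥ y) =
        ((g * r * g⁻¹ : GL (Fin n) F) : Matrix (Fin n) (Fin n) F) *ᵥ ((g : Matrix (Fin n) (Fin n) F) *ᵥ y) := by
      rw [Matrix.mulVec_mulVec, Matrix.mulVec_mulVec, ← Units.val_mul, ← Units.val_mul, inv_mul_cancel_right]
    have e2 : ((((g * r * g⁻¹)⁻¹ : GL (Fin n) F) : Matrix (Fin n) (Fin n) F)) *ᵥ ((g : Matrix (Fin n) (Fin n) F) *ᵥ x) =
        (g : Matrix (Fin n) (Fin n) F) *ᵥ (((r⁻¹ : GL (Fin n) F) : Matrix (Fin n) (Fin n) F) *ᵥ x) := by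
      rw [Matrix.mulVec_mulVec, Matrix.mulVec_mulVec, ← Units.val_mul, ← Units.val_mul]
      have e3 : (g * r * g⁻¹)⁻¹ * g = g * r⁻¹ := by group
      rw [e3]
    change hermForm n F q x ((M * (r : Matrix (Fin n) (Fin n) F)) *ᵥ y) =
      hermForm n F q x (((r : Matrix (Fin n) (Fin n) F) * M) *ᵥ y)
    rw [← Matrix.mulVec_mulVec, ← hM, e1, hleft _ hr', e2, hM, ← hleft r hr, Matrix.mulVec_mulVec])
  have hgen : ∀ x y : Fin n → F, hermForm n F q ((g : Matrix (Fin n) (Fin n) F) *ᵥ x)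
      ((g : Matrix (Fin n) (Fin n) F) *ᵥ y) = c ^ q * hermForm n F q x y := by
    intro x y
    rw [hM, hc, Matrix.smul_mulVec, Matrix.one_mulVec, herm_smul_right]
  have hc0 : c ^ q ≠ 0 := by
    intro h0
    have hne : (Pi.single ⟨0, by omega⟩ 1 : Fin n → F) ≠ 0 := by
      intro h
      have := congrFun h ⟨0, by omega⟩
      rw [Pi.single_eq_same] at this
      exact one_ne_zero this
    have hne' : (g : Matrix (Fin n) (Fin n) F) *ᵥ (Pi.single ⟨0, by omega⟩ 1 : Fin n → F) ≠ 0 := by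
      intro h
      apply hne
      have h3 := congrArg (fun v => ((g⁻¹ : GL (Fin n) F) : Matrix (Fin n) (Fin n) F) *ᵥ v) h
      change ((g⁻¹ : GL (Fin n) F) : Matrix (Fin n) (Fin n) F) *ᵥ ((g : Matrix (Fin n) (Fin n) F) *ᵥ _) = _ *ᵥ _ at h3
      rw [Matrix.mulVec_mulVec, ← Units.val_mul, inv_mul_cancel, Units.val_one, Matrix.one_mulVec, Matrix.mulVec_zero] at h3
      exact h3
    obtain ⟨v, hv⟩ := exists_herm_ne_zero hF hne'
    apply hv
    have : v = (g : Matrix (Fin n) (Fin n) F) *ᵥ (((g⁻¹ : GL (Fin n) F) : Matrix (Fin n) (Fin n) F) *ᵥ v) := by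
      rw [Matrix.mulVec_mulVec, ← Units.val_mul, mul_inv_cancel, Units.val_one, Matrix.one_mulVec]
    rw [this, hgen, h0, zero_mul]
  exact ⟨Units.mk0 _ hc0, hgen⟩

omit [Fintype F] in
/-- commutators of similarities are isometries -/
theorem commutator_sim_le {Y : Subgroup (GL (Fin n) F)} (hY : ⁅Y, Y⁆ = Y)
    (h : Y ≤ similarityGroup (hermForm n F q)) : Y ≤ GU n F q := by
  have h1 : ⁅Y, Y⁆ ≤ GU n F q := by
    rw [Subgroup.commutator_le]
    intro a ha b hb
    obtain ⟨c, hc⟩ := h ha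
    obtain ⟨d, hd⟩ := h hb
    have hinv : ∀ (g : GL (Fin n) F) (e : Fˣ), (∀ u v : Fin n → F, hermForm n F q
        ((g : Matrix (Fin n) (Fin n) F) *ᵥ u) ((g : Matrix (Fin n) (Fin n) F) *ᵥ v) = e * hermForm n F q u v) →
        ∀ u v : Fin n → F, hermForm n F q (((g⁻¹ : GL (Fin n) F) : Matrix (Fin n) (Fin n) F) *ᵥ u)
          (((g⁻¹ : GL (Fin n) F) : Matrix (Fin n) (Fin n) F) *ᵥ v) = (e : F)⁻¹ * hermForm n F q u v := by
      intro g e he u v
      have h2 := he (((g⁻¹ : GL (Fin n) F) : Matrix (Fin n) (Fin n) F) *ᵥ u) (((g⁻¹ : GL (Fin n) F) : Matrix (Fin n) (Fin n) F) *ᵥ v)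
      rw [Matrix.mulVec_mulVec, Matrix.mulVec_mulVec, ← Units.val_mul, mul_inv_cancel, Units.val_one,
        Matrix.one_mulVec, Matrix.one_mulVec] at h2
      rw [h2, ← mul_assoc, inv_mul_cancel₀ e.ne_zero, one_mul]
    change ∀ u v : Fin n → F, hermForm n F q (((⁅a, b⁆ : GL (Fin n) F) : Matrix (Fin n) (Fin n) F) *ᵥ u)
      (((⁅a, b⁆ : GL (Fin n) F) : Matrix (Fin n) (Fin n) F) *ᵥ v) = hermForm n F q u v
    intro u v
    rw [commutatorElement_def, Units.val_mul, Units.val_mul, Units.val_mul, ← Matrix.mulVec_mulVec, ← Matrix.mulVec_mulVec,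
      ← Matrix.mulVec_mulVec, ← Matrix.mulVec_mulVec, ← Matrix.mulVec_mulVec, ← Matrix.mulVec_mulVec, hc, hd,
      hinv a c hc, hinv b d hd]
    field_simp
  rwa [hY] at h1

/-- `Y ≤ SU` -/
theorem Part.le_SU {F : Type*} [Field F] [Fintype F] {q : ℕ} (hF : Fintype.card F = q ^ 2)
    {R : Subgroup (GL (Fin 4) F)} {C : H920.Coord R 2 2} {Y : Subgroup (GL (Fin 4) F)} (hY : Part C Y) (h : C6 R)
    (hR : R ≤ GU 4 F q) : Y ≤ GU 4 F q ⊓ specialLinear (Fin 4) F :=
  le_inf (commutator_sim_le hY.perfect (hY.le.trans (normalizer_le_similarity hF (by norm_num) h.abs hR)))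
    (H920.perfect_le_specialLinear hY.perfect)

end Cfsg.Agent.H900.SU4
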